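import Cfsg.Agent.H6.AbFrob2

/-! Characters of small degree when all nonidentity elements of a Sylow subgroup have the same
centralizer -/

set_option autoImplicit false

namespace Cfsg.Agent.H19

open Cfsg Cfsg.Agent.H4 Cfsg.Agent.H6 Subgroup
open scoped ComplexConjugate

section
variable {P : Type*} [Group P] [Fintype P]

theorem card_mul_inner_of_const {f g : P → ℂ} {a : ℂ} (hf : ∀ y, y ≠ 1 → f y = a) (g1 : g 1 = 1) :
    (Nat.card P : ℂ) * classInner f g = f 1 - a + a * (Nat.card P * classInner (fun _ => 1) g) := by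
  classical
  rw [card_mul_classInner, card_mul_classInner, ← Finset.add_sum_erase _ _ (Finset.mem_univ 1),
    ← Finset.add_sum_erase _ _ (Finset.mem_univ 1), mul_add, Finset.mul_sum,
    Finset.sum_congr rfl fun y hy => by rw [hf y (Finset.ne_of_mem_erase hy), ← mul_one a, mul_assoc]]
  simp only [g1, map_one, mul_one]
  ring

theorem inner_eq_of_eq_off_one {f g : P → ℂ} (hf : IsCharacter P f) (hg : IsCharacter P g)
    (h : ∀ y, y ≠ 1 → f y = g y) (h1 : charDegree f < Nat.card P) (h2 : charDegree g < Nat.card P) :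
    f = g := by
  have h3 := card_mul_inner_of_const (f := f - g) (g := fun _ => 1) (a := 0)
    (fun y hy => by simp [h y hy]) rfl
  obtain ⟨a, ha⟩ := hf.classInner_nat isCharacter_one
  obtain ⟨b, hb⟩ := hg.classInner_nat isCharacter_one
  rw [classInner_sub_left, ha, hb, Pi.sub_apply, ← hf.charDegree_cast, ← hg.charDegree_cast] at h3
  have h4 : (Nat.card P : ℤ) * (a - b) = charDegree f - charDegree g := by
    simp only [zero_mul, add_zero, sub_zero] at h3
    exact_mod_cast h3
  have h5 : (a : ℤ) - b = 0 := by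
    by_contra h5
    rcases lt_or_gt_of_ne h5 with h6 | h6 <;> nlinarith
  funext y
  by_cases hy : y = 1
  · rw [hy, ← hf.charDegree_cast, ← hg.charDegree_cast]
    rw [h5] at h4
    exact_mod_cast (by omega : charDegree f = charDegree g)
  · exact h y hy

end

variable {G : Type*} [Group G] [Fintype G] {p : ℕ} [hp : Fact p.Prime]

theorem isCharacter_blockPart (B : Set (IrrCharacter G)) {θ : G → ℂ} (hθ : IsCharacter G θ) :
    IsCharacter G (blockPart B θ) ∧ charDegree (blockPart B θ) ≤ charDegree θ := by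
  classical
  choose m hm using fun χ : IrrCharacter G => hθ.classInner_nat χ.2.isCharacter
  have h1 : blockPart B θ = ∑ χ : IrrCharacter G, ((if χ ∈ B then m χ else 0 : ℕ) : ℂ) • (χ : G → ℂ) := by
    rw [blockPart_eq_sum']
    exact Finset.sum_congr rfl fun χ _ => by rw [hm]; split_ifs <;> simp
  have h2 : IsCharacter G (blockPart B θ) := isCharacter_iff_exists_nat.mpr ⟨_, h1⟩
  refine ⟨h2, ?_⟩
  have h3 : charDegree (blockPart B θ) =
      ∑ χ : IrrCharacter G, (if χ ∈ B then m χ else 0) * charDegree (χ : G → ℂ) :=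
    charDegree_eq_of (by
      rw [h1, Finset.sum_apply]; push_cast
      exact Finset.sum_congr rfl fun χ _ => by simp [χ.2.isCharacter.charDegree_cast])
  have h4 : charDegree θ = ∑ χ : IrrCharacter G, m χ * charDegree (χ : G → ℂ) :=
    charDegree_eq_of (by
      conv_lhs => rw [hθ.eq_sum, Finset.sum_apply]
      push_cast
      exact Finset.sum_congr rfl fun χ _ => by simp [hm, χ.2.isCharacter.charDegree_cast])
  rw [h3, h4]
  exact Finset.sum_le_sum fun χ _ => by split_ifs <;> simp

variable {M : Ideal AlgInt} [hMm : M.IsMaximal] {P : Sylow p G} [Fintype (P : Subgroup G)]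

theorem le_ker_of_X (h : AF P) (hM : IsPModular p M) (D : AFData M P) {ψ : (P : Subgroup G) →* ℂˣ}
    (hψ : ψ ≠ 1) {χ : IrrCharacter G} (hχ : χ ∈ D.X)
    (hd : charDegree (χ : G → ℂ) + 1 < Nat.card P) : (P : Subgroup G) ≤ charKer (χ : G → ℂ) := by
  classical
  have hv : ∀ y : (P : Subgroup G), y ≠ 1 → (χ : G → ℂ) y = D.a χ := fun y hy =>
    D.apply_X h hM hχ (isPPart_self hp.out (exists_orderOf_eq_of_mem hp.out P.2 y.2)) y.2
      (by simpa using hy)
  have h1 := card_mul_inner_of_const hv (g := lf ψ) (by simp)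
  have h2 := card_mul_inner_of_const hv (g := fun _ => 1) rfl
  obtain ⟨a, ha⟩ := (χ.2.isCharacter.restrict P).classInner_nat (isCharacter_linear ψ)
  obtain ⟨b, hb⟩ := (χ.2.isCharacter.restrict P).classInner_nat isCharacter_one
  rw [← lf_one, inner_lf, if_neg hψ.symm] at h1
  rw [classInner_one_one, hb] at h2
  erw [ha] at h1
  simp only [OneMemClass.coe_one, ← χ.2.isCharacter.charDegree_cast, mul_zero, add_zero,
    mul_one] at h1 h2
  have h3 : (Nat.card P : ℤ) * a = charDegree (χ : G → ℂ) - D.a χ := by exact_mod_cast h1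
  have h4 : (Nat.card P : ℤ) * b = charDegree (χ : G → ℂ) - D.a χ + D.a χ * Nat.card P := by
    exact_mod_cast h2
  have h5 : (b : ℤ) = a + D.a χ := mul_left_cancel₀ (by omega : (Nat.card P : ℤ) ≠ 0) (by
    linear_combination h4 - h3)
  have h6 : a = 0 := by
    by_contra h6
    have : (Nat.card P - 1 : ℤ) * 1 ≤ (Nat.card P - 1) * a :=
      mul_le_mul_of_nonneg_left (by omega) (by omega)
    nlinarith
  intro y hy
  rw [χ.2.isCharacter.mem_charKer]
  by_cases h7 : y = 1
  · rw [h7]
  · rw [hv ⟨y, hy⟩ (by simpa using h7), ← χ.2.isCharacter.charDegree_cast]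
    subst h6
    exact_mod_cast (by omega : D.a χ = charDegree (χ : G → ℂ))

theorem fd_ζ (h : AF P) (hM : IsPModular p M) (D : AFData M P) (hd : D.d = 0)
    {ψ : (P : Subgroup G) →* ℂˣ} (hψ : ψ ≠ 1) {f : ℕ}
    (hf : classInner (fun y : (P : Subgroup G) => (D.ζ ψ : G → ℂ) y) (fun _ => 1) = f) :
    Nat.card P * f ≤ charDegree (D.ζ ψ : G → ℂ) + Nat.card (autz (P : Subgroup G)) := by
  classical
  have h1 := card_mul_classInner (fun y : (P : Subgroup G) => (D.ζ ψ : G → ℂ) y) (fun _ => 1)
  rw [hf, ← Finset.add_sum_erase _ _ (Finset.mem_univ 1), Finset.sum_congr rfl fun y hy => by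
    rw [D.apply_ζ h hM hψ (isPPart_self hp.out (exists_orderOf_eq_of_mem hp.out P.2 y.2))
      (Finset.ne_of_mem_erase hy), hd]] at h1
  simp only [map_one, mul_one, Int.cast_zero, zero_add, ← Finset.mul_sum] at h1
  rw [Finset.sum_comm, Finset.sum_congr rfl (g := fun _ => -1) fun α _ => by
    have h2 := (isIrrCharacter_linear (ψ.comp α.1.toMonoidHom)).sum_eq_zero fun e =>
      AF.comp_ne_one hψ α.1 (lf_injective (e.trans lf_one.symm))
    rw [← Finset.add_sum_erase _ _ (Finset.mem_univ 1)] at h2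
    simpa [eq_neg_iff_add_eq_zero, add_comm] using h2] at h1
  simp only [OneMemClass.coe_one, ← (D.ζ ψ).2.isCharacter.charDegree_cast, Finset.sum_const,
    Finset.card_univ, ← Nat.card_eq_fintype_card, smul_neg, nsmul_eq_mul, mul_one] at h1
  have h3 : (Nat.card P : ℤ) * f = charDegree (D.ζ ψ : G → ℂ) +
      D.δ * -(Nat.card (autz (P : Subgroup G))) := by exact_mod_cast h1
  rcases D.sign with e | e <;> rw [e] at h3 <;> zify <;> omega

theorem d_eq_zero_of_sq (h : AF P) (hM : IsPModular p M) (D : AFData M P)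
    {ψ : (P : Subgroup G) →* ℂˣ} (hψ : ψ ≠ 1)
    (he : Nat.card (autz (P : Subgroup G)) ^ 2 + 1 < Nat.card P) : D.d = 0 := by
  classical
  have h1 := D.norm_eq h hM hψ
  have h2 := D.card_Y h
  have h3 := D.rel h hM (D.ζ_mem_Y hψ) (g := 1) (by simpa using hp.out.ne_one)
  have h4 : Nat.card (autz (P : Subgroup G)) < D.Y.card :=
    Nat.lt_of_mul_lt_mul_right (a := Nat.card (autz (P : Subgroup G))) (by nlinarith)
  have h5 := D.a_one h hM hψ
  rw [← Finset.add_sum_erase _ _ D.one_mem_X, h5] at h1 h3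
  have h6 : 0 ≤ ∑ χ ∈ D.X.erase (irrOne G), D.a χ ^ 2 := Finset.sum_nonneg fun _ _ => sq_nonneg _
  by_contra hd
  have h7 : 0 < D.d ^ 2 := by positivity
  have h8 : ((D.Y.card : ℤ) - 1) * 1 ≤ (D.Y.card - 1) * D.d ^ 2 :=
    mul_le_mul_of_nonneg_left h7 (by omega)
  have h9 := sq_nonneg (D.d - D.δ)
  have h10 : D.d = D.δ := by nlinarith
  have h11 := (Finset.sum_eq_zero_iff_of_nonneg fun _ _ => sq_nonneg _).mp
    (by omega : ∑ χ ∈ D.X.erase (irrOne G), D.a χ ^ 2 = 0)
  rw [Finset.sum_eq_zero fun χ hχ => by rw [pow_eq_zero_iff two_ne_zero |>.mp (h11 χ hχ)]; simp,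
    ← (D.ζ ψ).2.isCharacter.charDegree_cast, h10] at h3
  have h12 : (D.Y.card * D.δ - D.δ) * charDegree (D.ζ ψ : G → ℂ) + 1 = (0 : ℤ) := by
    simp only [irrOne_apply, Int.cast_one, mul_one, add_zero] at h3
    exact_mod_cast h3
  have h13 := (D.ζ ψ).2.charDegree_pos
  have h14 : 0 < Nat.card (autz (P : Subgroup G)) := Nat.card_pos
  rcases D.sign with e | e <;> rw [e] at h12
  · nlinarith
  · obtain ⟨a, b, -, hab⟩ := Finset.card_eq_two.mp (by nlinarith : D.Y.card = 2)
    obtain ⟨ψ₁, -, h15⟩ := D.mem_Y.mp (hab ▸ Finset.mem_insert_self a {b})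
    obtain ⟨ψ₂, -, h16⟩ := D.mem_Y.mp (hab ▸ Finset.mem_insert_of_mem (Finset.mem_singleton_self b))
    refine D.two ⟨ψ₁, ψ₂, fun ψ' h17 => ?_⟩ h10
    simpa [hab, h15, h16] using D.ζ_mem_Y h17

omit hMm in
theorem card_autz_le (h : AF P) {χ : G → ℂ} (hχ : IsCharacter G χ)
    (hk : ¬ (P : Subgroup G) ≤ charKer χ) {C : Subgroup G} [Fintype C]
    (hC : C = centralizer ((P : Subgroup G) : Set G)) {ν : ℕ}
    (hν : classInner (fun c : C => χ c) (fun c : C => χ c) = ν) :
    Nat.card (autz (P : Subgroup G)) ≤ charDegree χ ∧ Nat.card (autz (P : Subgroup G)) ≤ ν := by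
  classical
  haveI := Fintype.ofFinite ((P : Subgroup G) →* ℂˣ)
  have hPC : (P : Subgroup G) ≤ C := fun y hy => hC ▸ fun z hz =>
    congrArg Subtype.val (h.comm ⟨z, hz⟩ ⟨y, hy⟩)
  obtain ⟨ψ, hψ, hne⟩ : ∃ ψ : (P : Subgroup G) →* ℂˣ, ψ ≠ 1 ∧
      classInner (fun y : (P : Subgroup G) => χ y) (lf ψ) ≠ 0 := by
    by_contra! hc
    refine hk fun y hy => ?_
    have h1 := fun y => (fourier h.comm (fun y : (P : Subgroup G) => χ y) y).trans
      (Finset.sum_eq_single 1 (fun ψ _ e => by rw [hc ψ e, zero_mul]) (by simp))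
    rw [hχ.mem_charKer]
    simpa using (h1 ⟨y, hy⟩).trans (h1 1).symm
  choose m hm using fun η : IrrCharacter C => (hχ.restrict C).classInner_nat η.2.isCharacter
  have h1 : ∀ α : autz (P : Subgroup G), ∃ η : IrrCharacter C, m η ≠ 0 ∧
      classInner (fun y : (P : Subgroup G) => (η : C → ℂ) ⟨y, hPC y.2⟩)
        (lf (ψ.comp α.1.toMonoidHom)) ≠ 0 := fun α => by
    by_contra! hc
    obtain ⟨n, -, hn⟩ := mem_autz.mp α.2
    apply hne
    rw [← classInner_comp_equiv _ _ α.1.toEquiv]
    have h2 : (fun y : (P : Subgroup G) => χ (α.1.toEquiv y)) = ∑ η : IrrCharacter C,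
        (m η : ℂ) • fun y : (P : Subgroup G) => (η : C → ℂ) ⟨y, hPC y.2⟩ := funext fun y => by
      have := congrFun (hχ.restrict C).eq_sum ⟨y, hPC y.2⟩
      simp only [hm] at this
      rw [show ((α.1.toEquiv y : (P : Subgroup G)) : G) = n * y * n⁻¹ from hn y, hχ.isClassFunction]
      simpa using this
    rw [h2, classInner_sum_left]
    refine Finset.sum_eq_zero fun η _ => ?_
    rw [classInner_smul_left]
    by_cases h3 : m η = 0
    · simp [h3]
    · exact mul_eq_zero_of_right _ (hc η h3)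
  choose η hη1 hη2 using h1
  have hinj : Function.Injective η := fun α β e => h.comp_injective hψ (by
    obtain ⟨lam, hl, -⟩ := exists_linear_charCenter (η β).2.apply_one_ne_zero
    let f : (P : Subgroup G) →* charCenter (η β : C → ℂ) := (inclusion hPC).codRestrict _
      fun y => (η β).2.center_le_charCenter (mem_center_iff.mpr fun c =>
        Subtype.ext ((hC ▸ c.2 : (c : G) ∈ centralizer _) y y.2).symm)
    have h2 : (fun y : (P : Subgroup G) => (η β : C → ℂ) ⟨y, hPC y.2⟩) =
        (η β : C → ℂ) 1 • lf (lam.comp f) := funext fun y => by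
      have := hl (f y) 1
      rw [mul_one, mul_comm] at this
      exact this
    have h3 := hη2 α
    have h4 := hη2 β
    rw [e] at h3
    rw [h2, classInner_smul_left, inner_lf] at h3 h4
    simp only [ne_eq, mul_eq_zero, ite_eq_right_iff, one_ne_zero, imp_false, not_or, not_not] at h3 h4
    exact h3.2.symm.trans h4.2)
  have h5 : ∀ F : IrrCharacter C → ℕ, (∀ η, m η ≠ 0 → 0 < F η) →
      Nat.card (autz (P : Subgroup G)) ≤ ∑ η, m η * F η := fun F hF => by
    rw [Nat.card_eq_fintype_card, ← Finset.card_univ, ← Finset.card_image_of_injective _ hinj,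
      Finset.card_eq_sum_ones]
    refine le_trans (Finset.sum_le_sum fun ξ hξ => ?_)
      (Finset.sum_le_sum_of_subset (Finset.subset_univ _))
    obtain ⟨α, -, rfl⟩ := Finset.mem_image.mp hξ
    exact Nat.mul_pos (Nat.pos_of_ne_zero (hη1 α)) (hF _ (hη1 α))
  constructor
  · refine (h5 _ fun η _ => η.2.charDegree_pos).trans (Eq.ge (charDegree_eq_of ?_))
    have := congrFun (hχ.restrict C).eq_sum 1
    simpa [hm, fun η : IrrCharacter C => η.2.isCharacter.charDegree_cast] using this
  · refine (h5 m fun η => Nat.pos_of_ne_zero).trans (Eq.ge ?_)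
    rw [(hχ.restrict C).eq_sum, classInner_sum_irr] at hν
    simp only [hm, map_natCast] at hν
    exact_mod_cast hν.symm

omit hMm in
theorem brauer_leonard (hP : 1 < Nat.card P) (hstar : ∀ x ∈ (P : Subgroup G), x ≠ 1 →
      centralizer ({x} : Set G) = centralizer ((P : Subgroup G) : Set G))
    (hG : ∀ K : Subgroup G, K.Normal → (P : Subgroup G) ≤ K → K = ⊤) (χ : IrrCharacter G)
    (h1 : χ ≠ irrOne G) (hdeg : charDegree (χ : G → ℂ) ^ 2 + 1 < Nat.card P) :
    Nat.card (autz (P : Subgroup G)) = 1 ∧ charDegree (χ : G → ℂ) = 1 := by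
  classical
  haveI := Fintype.ofFinite ((P : Subgroup G) →* ℂˣ)
  have h : AF P := ⟨fun a b => Subtype.ext (by
    by_cases ha : (a : G) = 1
    · simp [ha]
    · exact ((hstar a a.2 ha ▸ mem_centralizer_singleton.mpr (Commute.refl _) :
        (a : G) ∈ centralizer _) b b.2).symm), fun y hy e => hstar y hy e ▸ inf_le_left⟩
  have hk : ∀ φ : IrrCharacter G, (P : Subgroup G) ≤ charKer (φ : G → ℂ) → φ = irrOne G :=
    fun φ hφ => by
      have h2 := hG _ φ.2.isClassFunction.charKer_normal hφ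
      have h3 : (φ : G → ℂ) 1 = 1 := φ.2.commutator_le_charKer_iff.mp (h2 ▸ le_top)
      exact Subtype.ext (funext fun g => (φ.2.isCharacter.mem_charKer.mp (h2 ▸ mem_top g)).trans h3)
  obtain ⟨M, hM⟩ := exists_isPModular hp.out
  haveI := hM.2.1
  set C := centralizer ((P : Subgroup G) : Set G) with hC
  have hPC : (P : Subgroup G) ≤ C := fun y hy z hz => congrArg Subtype.val (h.comm ⟨z, hz⟩ ⟨y, hy⟩)
  obtain ⟨ν, hν⟩ := (χ.2.isCharacter.restrict C).classInner_nat (χ.2.isCharacter.restrict C)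
  obtain ⟨he1, he2⟩ := card_autz_le h χ.2.isCharacter (mt (hk χ) h1) hC hν
  set e := Nat.card (autz (P : Subgroup G))
  have he0 : 0 < e := Nat.card_pos
  have he3 : e ^ 2 + 1 < Nat.card P := by have := Nat.pow_le_pow_left he1 2; omega
  obtain ⟨D⟩ := h.nonempty_data hM (by nlinarith)
  obtain ⟨ψ, hψ⟩ : ∃ ψ : (P : Subgroup G) →* ℂˣ, ψ ≠ 1 := by
    haveI := Fintype.one_lt_card_iff_nontrivial.mp ((card_lf h.comm).symm ▸ hP)
    exact exists_ne 1
  have hd := d_eq_zero_of_sq h hM D hψ he3
  have hΨ : IsCharacter G ((χ : G → ℂ) * fun g => conj ((χ : G → ℂ) g)) :=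
    χ.2.isCharacter.mul χ.2.isCharacter.conj
  set Ψ := (χ : G → ℂ) * fun g => conj ((χ : G → ℂ) g) with hΨe
  have hΨ1 : charDegree Ψ = charDegree (χ : G → ℂ) ^ 2 := charDegree_eq_of (by
    simp [hΨe, ← χ.2.isCharacter.charDegree_cast, sq])
  choose m hm using fun φ : IrrCharacter G => hΨ.classInner_nat φ.2.isCharacter
  choose f hf using fun φ : IrrCharacter G =>
    (φ.2.isCharacter.restrict P).classInner_nat isCharacter_one
  obtain ⟨h2, h3⟩ := isCharacter_blockPart (principalBlock M G) hΨ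
  obtain ⟨h4, h5⟩ := isCharacter_blockPart (principalBlock M C) (hΨ.restrict C)
  have h6 : (fun y : (P : Subgroup G) => blockPart (principalBlock M G) Ψ y) =
      fun y : (P : Subgroup G) => blockPart (principalBlock M C) (fun c : C => Ψ c) ⟨y, hPC y.2⟩ := by
    refine inner_eq_of_eq_off_one (h2.restrict _) (h4.restrict_le hPC) (fun y hy => ?_)
      (lt_of_le_of_lt h3 (by omega)) (lt_of_le_of_lt h5 (by change charDegree Ψ < _; omega))
    have h7 : IsPPart p ((⟨y, hPC y.2⟩ : C) : G) y :=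
      isPPart_self hp.out (exists_orderOf_eq_of_mem hp.out P.2 y.2)
    have h8 := (hstar y y.2 (by simpa using hy)).le
    rw [show (fun c : C => Ψ c) = ∑ φ : IrrCharacter G, classInner Ψ φ • fun c : C => (φ : G → ℂ) c
      from funext fun c => by simpa using congrFun hΨ.eq_sum c, blockPart_sum, blockPart_eq_sum',
      Finset.sum_apply, Finset.sum_apply]
    refine Finset.sum_congr rfl fun φ _ => ?_
    rw [blockPart_smul, Pi.smul_apply, Pi.smul_apply]
    split_ifs with h9
    · rw [principal_restrict_of_mem hM (fun b => inducedBlockDefined_centralizer hM P.2) h7 h8 h9]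
    · rw [principal_restrict_of_not_mem hM
        (inducedBlockDefined_centralizer hM P.2 isPBlock_principal) h7 h8 h9, smul_zero, zero_smul]
  set T := Finset.univ.filter (· ∈ principalBlock M G)
  have hT : irrOne G ∈ T := by simpa [T] using irrOne_mem_principal
  have h7 : blockPart (principalBlock M G) Ψ = ∑ φ ∈ T, (m φ : ℂ) • (φ : G → ℂ) := by
    rw [blockPart_eq_sum', Finset.sum_filter]
    exact Finset.sum_congr rfl fun φ _ => by rw [hm]; split_ifs <;> simp
  have h8 : ν ≤ ∑ φ ∈ T, m φ * f φ := by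
    have h9 : classInner (blockPart (principalBlock M C) fun c : C => Ψ c) (irrOne C) = ν := by
      rw [classInner_blockPart, if_pos irrOne_mem_principal, ← hν, classInner_eq_mul_conj_one _
        fun c : C => (χ : G → ℂ) c]
      rfl
    obtain ⟨k, hk⟩ := ((h4.sub_smul_irr (irrOne C).2).restrict_le hPC).classInner_nat isCharacter_one
    rw [h9, show (fun y : (P : Subgroup G) => ((blockPart (principalBlock M C) fun c : C => Ψ c) -
      (ν : ℂ) • (irrOne C : C → ℂ)) ⟨y, hPC y.2⟩) = (∑ φ ∈ T, (m φ : ℂ) •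
        fun y : (P : Subgroup G) => (φ : G → ℂ) y) - (ν : ℂ) • fun _ => 1 from funext fun y => by
          simp [← congrFun h6 y, h7], classInner_sub_left, classInner_sum_left,
      classInner_smul_left, classInner_one_one] at hk
    simp only [classInner_smul_left, hf, mul_one, sub_eq_iff_eq_add] at hk
    exact_mod_cast (Nat.le_add_left ν k).trans (Eq.ge (by exact_mod_cast hk))
  have h9 : charDegree (blockPart (principalBlock M G) Ψ) =
      ∑ φ ∈ T, m φ * charDegree (φ : G → ℂ) := charDegree_eq_of (by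
    simp [h7, fun η : IrrCharacter G => η.2.isCharacter.charDegree_cast])
  have h10 : m (irrOne G) = 1 := by
    have := hm (irrOne G)
    rw [show classInner Ψ (irrOne G) = classInner (χ : G → ℂ) χ from
      (classInner_eq_mul_conj_one _ _).symm, χ.2.classInner_self] at this
    exact_mod_cast this.symm
  have h11 : f (irrOne G) = 1 := by exact_mod_cast (hf (irrOne G)).symm.trans classInner_one_one
  have h12 : charDegree (irrOne G : G → ℂ) = 1 := charDegree_eq_of (by simp)
  have h13 : (Nat.card P - e) * ∑ φ ∈ T.erase (irrOne G), m φ * f φ ≤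
      ∑ φ ∈ T.erase (irrOne G), m φ * charDegree (φ : G → ℂ) := by
    rw [Finset.mul_sum]
    refine Finset.sum_le_sum fun φ hφ => ?_
    rcases Nat.eq_zero_or_pos (m φ) with h14 | h14
    · simp [h14]
    rw [mul_left_comm]
    refine Nat.mul_le_mul_left _ ?_
    have h15 := Finset.single_le_sum (f := fun φ => m φ * charDegree (φ : G → ℂ))
      (fun _ _ => Nat.zero_le _) (Finset.mem_of_mem_erase hφ)
    have h16 := Nat.le_mul_of_pos_left (charDegree (φ : G → ℂ)) h14
    by_cases h17 : φ ∈ D.Y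
    · obtain ⟨ψ', h18, rfl⟩ := D.mem_Y.mp h17
      have h19 := fd_ζ h hM D hd h18 (hf _)
      rw [Nat.sub_mul]
      rcases Nat.eq_zero_or_pos (f (D.ζ ψ')) with h20 | h20
      · simp [h20]
      · have := Nat.le_mul_of_pos_right e h20; omega
    · exact absurd (hk φ (le_ker_of_X h hM D hψ (D.mem_X.mpr
        ⟨by simpa [T] using Finset.mem_of_mem_erase hφ, h17⟩) (by omega)))
        (Finset.ne_of_mem_erase hφ)
  rw [← Finset.add_sum_erase _ _ hT, h10] at h8 h9
  rw [h11] at h8
  rw [h12] at h9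
  have h14 : ν = 1 := by
    generalize ∑ φ ∈ T.erase (irrOne G), m φ * f φ = F at h8 h13
    obtain ⟨r, hr⟩ : ∃ r, Nat.card P = e + r := ⟨Nat.card P - e, by
      have : e ≤ Nat.card P := by nlinarith
      omega⟩
    rw [hr, Nat.add_sub_cancel_left] at h13
    have h15 : r * F + 3 ≤ e + r := by omega
    by_contra h16
    rcases (by omega : e ≤ 2 ∨ 2 < e) with h17 | h17
    · have := Nat.le_mul_of_pos_right r (by omega : 0 < F); omega
    · have := Nat.mul_le_mul_left r (by omega : 2 ≤ F); nlinarith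
  refine ⟨by omega, ?_⟩
  have h15 := (χ.2.isCharacter.restrict C).isIrr_of_classInner_self (by rw [hν, h14]; simp)
  have h16 := hG _ χ.2.isClassFunction.charCenter_normal fun y hy =>
    χ.2.isCharacter.mem_charCenter.mpr (h15.isCharacter.mem_charCenter.mp
      (h15.center_le_charCenter (x := ⟨y, hPC hy⟩) (mem_center_iff.mpr fun c =>
        Subtype.ext (c.2 y hy).symm)))
  have h17 := χ.2.degree_sq_le_index_charCenter χ.2.isCharacter.charDegree_cast.symm
  rw [h16, index_top] at h17
  have := χ.2.charDegree_pos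
  nlinarith

end Cfsg.Agent.H19
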