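import Cfsg.Agent.H19.FamD

/-! Sylow subgroup of prime order `p`: faithful characters have degree at least `(p - 1) / 2` -/

set_option autoImplicit false

namespace Cfsg.Agent.H19

open Cfsg Cfsg.Agent.H4 Cfsg.Agent.H5 Cfsg.Agent.H6
open scoped ComplexConjugate

variable {G : Type*} [Group G] {p : ℕ} [hp : Fact p.Prime] {x : G} {K : Subgroup G}

/-- `x` generates `G` as a normal subgroup -/
def NGen (x : G) : Prop := ∀ S : Subgroup G, S.Normal → x ∈ S → S = ⊤

theorem mem_ncl (x : G) : x ∈ Subgroup.normalClosure {x} := Subgroup.subset_normalClosure rfl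

theorem ngen_ncl [Finite G] (hx : orderOf x = p) (hn : ¬ p ^ 2 ∣ Nat.card G) :
    NGen (⟨x, mem_ncl x⟩ : Subgroup.normalClosure {x}) := by
  intro S hS hxS
  have hx' : orderOf (⟨x, mem_ncl x⟩ : Subgroup.normalClosure {x}) = p := by
    rw [← hx, ← Subgroup.orderOf_coe]
  obtain ⟨K, h⟩ := exists_PO hx' fun e => hn (e.trans (Subgroup.card_subgroup_dvd_card _))
  have h1 : Subgroup.normalClosure {x} ≤ S.map (Subgroup.normalClosure {x}).subtype := by
    refine (Subgroup.closure_le _).mpr fun y hy => ?_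
    obtain ⟨z, hz, hy'⟩ := Group.mem_conjugatesOfSet_iff.mp hy
    rw [Set.mem_singleton_iff.mp hz] at hy'
    have hy2 : y ∈ Subgroup.normalClosure {x} := Subgroup.subset_closure hy
    obtain ⟨a, i, e⟩ := h.exists_conj_xp (g := ⟨y, hy2⟩) (by
      rw [← Subgroup.orderOf_coe, ← hx]; exact (orderOf_eq_of_isConj hy').symm)
    exact ⟨_, e ▸ hS.conj_mem _ (S.pow_mem hxS _) a, rfl⟩
  refine eq_top_iff.mpr fun g _ => ?_
  obtain ⟨s, hs, e⟩ := h1 g.2
  exact (Subtype.ext e : s = g) ▸ hs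

theorem NGen.mk (hg : NGen x) (S : Subgroup G) [S.Normal] : NGen (QuotientGroup.mk x : G ⧸ S) :=
  fun T hT hx => by
    have := hg (T.comap (QuotientGroup.mk' S)) (hT.comap _) hx
    exact Subgroup.comap_injective (QuotientGroup.mk'_surjective S) (this.trans (Subgroup.comap_top _).symm)

theorem fd_ne_zero_of_ker [Finite G] (hx : orderOf x = p) {χ : IrrCharacter G}
    (h : x ∈ charKer (χ : G → ℂ)) : fd p x (χ : G → ℂ) ≠ 0 := fun e => by
  have h1 := p_mul_fd hx χ.2.isCharacter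
  rw [e, sg_const (c := charDegree (χ : G → ℂ)) fun i _ => by
    rw [xp, apply_of_mem_charKer (pow_mem h _), χ.2.isCharacter.charDegree_cast]] at h1
  have : ((p * charDegree (χ : G → ℂ) : ℕ) : ℂ) = 0 := by push_cast at h1 ⊢; linear_combination -h1
  exact (Nat.mul_pos hp.out.pos χ.2.charDegree_pos).ne' (by exact_mod_cast this)

variable [Fintype G]

theorem le_centralizer_of_normal (hx : orderOf x = p) (hn : ¬ p ^ 2 ∣ Nat.card G) {χ : G → ℂ}
    (hχ : IsCharacter G χ) (hd : charDegree χ + 1 < p) (hf : ∀ g, χ g = χ 1 → g = 1)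
    {L : Subgroup G} [hL : L.Normal] (hxL : x ∉ L) {l : G} (hl : l ∈ L) : Commute x l := by
  refine central_of_e_one' hx hn (H := L ⊔ Subgroup.zpowers x)
    (Subgroup.mem_sup_right (Subgroup.mem_zpowers x)) (fun g hg hN => ?_) hχ hd hf
    (Subgroup.mem_sup_left hl)
  obtain ⟨l, hl, _, ⟨k, rfl⟩, rfl⟩ := Subgroup.mem_sup_of_normal_left.mp hg
  have h1 : l ∈ NN x := by
    simpa using mul_mem hN (inv_mem (Subgroup.le_normalizer (Subgroup.zpow_mem_zpowers x k)))
  obtain ⟨c, hc⟩ := exists_unit_of_mem_normalizer hx h1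
  refine Commute.mul_right ?_ ((Commute.refl x).zpow_right k)
  by_contra h2
  have h3 : (c : ZMod p) - 1 ≠ 0 := fun e => h2 (by
    rw [sub_eq_zero.mp e, xp_one hx, mul_inv_eq_iff_eq_mul] at hc; exact hc.symm)
  refine hxL ?_
  rw [← xp_pow_inv hx h3, sub_eq_add_neg, xp_add hx, xp_neg hx, xp_one hx, ← hc]
  exact pow_mem (by simpa [mul_assoc] using mul_mem hl (hL.conj_mem _ (inv_mem hl) x)) _

theorem BD.exists_fd_zero {h : PO p x K} (B : BD h) {ψ ψ' : G → ℂ} (hψ : IsCharacter G ψ)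
    (hψ' : IsCharacter G ψ') (hr : ∀ g, ¬ p ∣ orderOf g → ψ g = ψ' g)
    (h1 : classInner ψ (irrOne G : G → ℂ) = 1) (h0 : fd p x ψ' = 0) :
    ∃ χ, B.Mem χ ∧ fd p x (χ : G → ℂ) = 0 ∧ charDegree (χ : G → ℂ) < p := by
  classical
  haveI := Fintype.ofFinite ((ZMod p)ˣ ⧸ EE h.ord)
  have hf : ∀ χ : IrrCharacter G, classInner ψ' χ ≠ 0 → fd p x (χ : G → ℂ) = 0 := fun χ e => by
    have := fd_le_of_inner h.ord hψ' e; omega
  have h2 : classInner (ψ - ψ') (irrOne G : G → ℂ) = 1 := by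
    rw [classInner_sub_left, h1, not_not.mp fun e => one_ne_zero ((fd_one h.ord).symm.trans (hf _ e)),
      sub_zero]
  have hv : ∀ g, ¬ p ∣ orderOf g → (ψ - ψ') g = 0 := fun g hg => by simp [hr g hg]
  have hp1 := hp.out.one_lt
  by_cases ha : ∃ χ ∈ B.X, B.a χ = -1
  · obtain ⟨χ, hχ, ha⟩ := ha
    have h3 := B.inner_X_of_vanish hv hχ
    obtain ⟨m, hm⟩ := hψ.classInner_nat χ.2.isCharacter
    rw [h2, classInner_sub_left, hm, ha] at h3
    have h4 := hf χ (by
      rw [show classInner ψ' χ = m + 1 by push_cast at h3; linear_combination -h3]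
      exact_mod_cast (by omega : m + 1 ≠ 0))
    have h5 := B.fd_X hχ
    rw [h4, ha] at h5
    exact ⟨χ, Or.inl hχ, h4, by omega⟩
  have hε : B.ε = 1 := B.hε.resolve_right fun e => by
    have h3 := B.deg_eq
    have := B.z_pos
    have : 0 ≤ ∑ χ ∈ B.X, B.a χ * charDegree (χ : G → ℂ) := Finset.sum_nonneg fun χ hχ => by
      rw [(B.ha χ hχ).resolve_right fun e => ha ⟨χ, hχ, e⟩]; positivity
    rw [e] at h3
    omega
  have h3 : classInner (ψ - ψ') (∑ s, (B.μ s : G → ℂ)) =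
      -classInner (ψ - ψ') (irrOne G : G → ℂ) := by
    rw [classInner_def, classInner_def, ← mul_neg, ← Finset.sum_neg_distrib]
    refine congrArg _ (Finset.sum_congr rfl fun g _ => ?_)
    by_cases hg : p ∣ orderOf g
    · obtain ⟨t, i, hi, y, hy, rfl⟩ := h.exists_conj_of_dvd hg
      rw [Finset.sum_apply, Finset.sum_congr rfl fun s _ => ((B.μ s).2.isClassFunction _ _).trans
        (B.valμ s i hi y hy), ← Finset.mul_sum, sum_per _ hi, hε]
      simp [irrOne]
    · simp [hv g hg]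
  obtain ⟨s, hs⟩ : ∃ s, classInner ψ' (B.μ s) ≠ 0 := by
    by_contra hc
    push Not at hc
    choose m hm using fun s => hψ.classInner_nat (B.μ s).2.isCharacter
    simp only [h2, classInner_sum_right, classInner_sub_left, hc, hm, sub_zero] at h3
    have : ((∑ s, m s + 1 : ℕ) : ℂ) = 0 := by push_cast; linear_combination h3
    exact absurd (by exact_mod_cast this) (Nat.succ_ne_zero (∑ s, m s))
  have h5 := B.fd_μ s
  rw [hf _ hs, hε] at h5
  have := eN_mul' h.ord
  have := Nat.le_mul_of_pos_right (eN h.ord) (tN_pos h.ord)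
  exact ⟨B.μ s, Or.inr ⟨s, rfl⟩, hf _ hs, by rw [B.deg_μ]; omega⟩

theorem fd_mul_conj (hx : orderOf x = p) {χ χ' : G → ℂ} (hχ : IsCharacter G χ)
    (hχ' : IsCharacter G χ') {d : ℕ} {q r : (ZMod p)ˣ ⧸ EE hx} [Decidable (q = r)]
    (h1 : χ 1 = eN hx * d) (h1' : χ' 1 = eN hx * d)
    (h2 : ∀ i : ZMod p, i ≠ 0 → χ (xp x i) = d * per (EE hx) q i)
    (h2' : ∀ i : ZMod p, i ≠ 0 → χ' (xp x i) = d * per (EE hx) r i) :
    charDegree (fun g => χ g * conj (χ' g)) = (eN hx * d) ^ 2 ∧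
      fd p x (fun g => χ g * conj (χ' g)) = if q = r then eN hx * d ^ 2 else 0 := by
  have h3 : charDegree (fun g => χ g * conj (χ' g)) = (eN hx * d) ^ 2 :=
    charDegree_eq_of (by simp [h1, h1', sq])
  refine ⟨h3, ?_⟩
  have h4 := p_mul_fd hx (hχ.mul hχ'.conj)
  have h5 : sg p x (fun g => χ g * conj (χ' g)) =
      d ^ 2 * ((if q = r then (p * eN hx : ℂ) else 0) - eN hx ^ 2) := by
    rw [← sum_units_per_mul_conj, sg, Finset.mul_sum]
    refine Finset.sum_congr rfl fun i _ => ?_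
    rw [h2 _ i.ne_zero, h2' _ i.ne_zero, map_mul, map_natCast]; ring
  have h6 : (fd p x (fun g => χ g * conj (χ' g)) : ℂ) = (if q = r then eN hx * d ^ 2 else 0 : ℕ) := by
    apply mul_left_cancel₀ (p_ne_zero_C (p := p))
    refine h4.trans ?_
    rw [show charDegree (χ * fun g => conj (χ' g)) = _ from h3, show sg p x (χ * fun g => conj (χ' g))
      = _ from h5]
    split_ifs <;> push_cast <;> ring
  exact_mod_cast h6

theorem exists_normal_of_pos (h : PO p x K) {χ : IrrCharacter G} {d : ℕ} {c : (ZMod p)ˣ}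
    (ht : tN h.ord ≠ 1) (h1 : (χ : G → ℂ) 1 = eN h.ord * d)
    (h2 : ∀ i : ZMod p, i ≠ 0 → (χ : G → ℂ) (xp x i) = d * per (EE h.ord) c i) :
    ∃ L : Subgroup G, L.Normal ∧ K ≤ L ∧ x ∉ L := by
  classical
  obtain ⟨r, hr⟩ := BD.exists_ne_one (h := h) ht
  obtain ⟨u, rfl⟩ := QuotientGroup.mk_surjective r
  obtain ⟨σ, s1, s2⟩ := exists_ringEquiv_unit h.not_dvd_div u
  have hχ' := χ.2.isCharacter.map_ringHom (σ : ℂ →+* ℂ)
  have h3 : ∀ g, ¬ p ∣ orderOf g → (σ : ℂ →+* ℂ) ((χ : G → ℂ) g) = (χ : G → ℂ) g := fun g hg => by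
    rw [χ.2.isCharacter.map_apply_eq_pow (m := 1) (fun z hz => by simpa using s1 z hz)
      (h.pow_eq_one_of_regular hg), pow_one]
  have h4 := (fd_mul_conj h.ord χ.2.isCharacter hχ' (r := (u : _ ⧸ EE h.ord) * c) h1
    (by simp [h1]) h2 fun i hi => by rw [h2 i hi, map_mul, map_natCast, map_per _ s2]).2
  rw [if_neg (by simpa using hr.symm)] at h4
  obtain ⟨B⟩ := h.nonempty_BD
  obtain ⟨ξ, e1, e2, e3⟩ := B.exists_fd_zero (χ.2.isCharacter.mul χ.2.isCharacter.conj)
    (χ.2.isCharacter.mul hχ'.conj) (fun g hg => by simp only [Pi.mul_apply, h3 g hg])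
    ((classInner_eq_mul_conj_one _ _).symm.trans χ.2.classInner_self) h4
  exact ⟨_, ξ.2.isCharacter.charKer_normal, fun y hy => ξ.2.isCharacter.mem_charKer.mpr
    (apply_eq_of_degree_lt h.ord (fun y hy => h.commute hy) ξ.2.isCharacter e1.val e3 hy),
    fun e => fd_ne_zero_of_ker h.ord e e2⟩

theorem BD.ratio {h : PO p x K} (B : BD h) (hg : NGen x) (ht : tN h.ord ≠ 1) {χ : IrrCharacter G}
    (h1 : χ ≠ irrOne G) (hK : K ≤ charKer (χ : G → ℂ)) :
    (p + 1) * fd p x (χ : G → ℂ) ≤ 2 * charDegree (χ : G → ℂ) := by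
  have h7 : (1 : ℤ) < p := by exact_mod_cast hp.out.one_lt
  have h0 := Int.natCast_nonneg (fd p x (χ : G → ℂ))
  rcases B.cases χ with e | ⟨q, rfl⟩ | e
  · have h5 := B.fd_X e
    zify
    rcases B.ha χ e with e' | e' <;> rw [e'] at h5
    · have h6 : charDegree (χ : G → ℂ) ≠ 1 := fun e1 => h1 (Subtype.ext (χ.2.charKer_eq_top_iff.mp
        (hg _ χ.2.isCharacter.charKer_normal (χ.2.isCharacter.mem_charKer.mpr (by
          rw [← xp_one h.ord, B.valX' e one_ne_zero, e', ← χ.2.isCharacter.charDegree_cast, e1]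
          simp)))))
      have h8 := χ.2.charDegree_pos
      have h9 : (2 : ℤ) ≤ fd p x (χ : G → ℂ) := by
        by_contra h9
        obtain e | e : (fd p x (χ : G → ℂ) : ℤ) = 0 ∨ (fd p x (χ : G → ℂ) : ℤ) = 1 := by omega
        all_goals rw [e] at h5; omega
      nlinarith
    · nlinarith
  · have h5 := B.fd_μ q
    have h6 := eN_mul' h.ord
    have h8 := Nat.mul_le_mul_left (eN h.ord) (show 2 ≤ tN h.ord by have := tN_pos h.ord; omega)
    have h9 := B.z_pos
    rw [B.deg_μ]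
    zify at h6 h8 ⊢
    rcases B.hε with e | e <;> rw [e] at h5
    · nlinarith
    · have : (1 : ℤ) ≤ fd p x (B.μ q : G → ℂ) := by
        by_contra h
        rw [show (fd p x (B.μ q : G → ℂ) : ℤ) = 0 by omega] at h5
        omega
      nlinarith
  · haveI := Fintype.ofFinite K
    have h5 := p_mul_fd h.ord χ.2.isCharacter
    rw [sg_const (c := 0) fun i hi => by
      have := B.other χ e.1 e.2 i hi
      rw [Finset.sum_congr rfl fun y _ => χ.2.isClassFunction.apply_mul_of_mem_charKer' (hK y.2) _,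
        Finset.sum_const, nsmul_eq_mul, mul_eq_zero] at this
      exact this.resolve_left (by simp), mul_zero, add_zero] at h5
    have h6 : p * fd p x (χ : G → ℂ) = charDegree (χ : G → ℂ) := by exact_mod_cast h5
    rw [← h6, ← mul_assoc]
    exact Nat.mul_le_mul_right _ (by omega)

/-- faithful irreducible characters of small degree of a group generated by its Sylow subgroups -/
theorem PO.half (h : PO p x K) (hg : NGen x) {χ : IrrCharacter G}
    (hf : ∀ g, (χ : G → ℂ) g = (χ : G → ℂ) 1 → g = 1) (hd : charDegree (χ : G → ℂ) + 1 < p)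
    (hx : x ∉ Subgroup.center G) : K ≤ Subgroup.center G ∧ tN h.ord ≠ 1 ∧
      ((charDegree (χ : G → ℂ) = eN h.ord ∧ 2 * eN h.ord + 1 = p) ∨
        charDegree (χ : G → ℂ) + eN h.ord = p) := by
  classical
  haveI := Fintype.ofFinite K
  have hk : charKer (χ : G → ℂ) = ⊥ := eq_bot_iff.mpr fun a ha => hf a (apply_of_mem_charKer ha)
  obtain ⟨θ, D, c, rfl, ht, ⟨e1, e2⟩ | ⟨-, e2, e3, -, e5⟩⟩ := h.small_cases hd
    fun e => hx (hf x e ▸ one_mem _)
  swap
  · obtain ⟨lam, hl⟩ := D.irr.isCharacter.exists_linear (by rw [D.θ_one, e2, Nat.cast_one])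
    exact ⟨fun y hy => (D.μ c).2.isCharacter.charCenter_le_center hk
      ((D.μ c).2.isCharacter.mem_charCenter.mpr (by
        rw [show y = (⟨y, hy⟩ : K) from rfl, e5, norm_mul, congrFun hl, linear_norm, mul_one,
          (D.μ c).2.isCharacter.charDegree_cast])), ht, Or.inr e3⟩
  have h1 : (D.μ c : G → ℂ) 1 = eN h.ord * D.d := by
    rw [← (D.μ c).2.isCharacter.charDegree_cast, e2, Nat.cast_mul]
  have h2 : ∀ i : ZMod p, i ≠ 0 → (D.μ c : G → ℂ) (xp x i) = D.d * per (EE h.ord) c i :=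
    fun i hi => by rw [D.valμ_one c hi, e1]; simp
  obtain ⟨L, hL, h3, h4⟩ := exists_normal_of_pos h ht h1 h2
  have hK : K ≤ Subgroup.center G := fun y hy => Subgroup.mem_center_iff.mpr fun g =>
    ((hg (Subgroup.centralizer L) inferInstance (fun l hl => (le_centralizer_of_normal h.ord h.nsq
      (D.μ c).2.isCharacter hd hf h4 hl).eq.symm) ▸ Subgroup.mem_top g :
        g ∈ Subgroup.centralizer (L : Set G)) y (h3 hy)).symm
  have h5 : D.d = 1 := by
    have := D.irr.apply_one_eq_one_of_comm fun a b => Subtype.ext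
      (Subgroup.mem_center_iff.mp (hK b.2) a)
    rw [D.θ_one] at this
    exact_mod_cast this
  rw [h5, mul_one] at e2
  refine ⟨hK, ht, Or.inl ⟨e2, ?_⟩⟩
  obtain ⟨d1, d2⟩ := fd_mul_conj h.ord (D.μ c).2.isCharacter (D.μ c).2.isCharacter h1 h1 h2 h2
  have hψ := (D.μ c).2.isCharacter.mul (D.μ c).2.isCharacter.conj
  obtain ⟨m, m1, -, m2, m3⟩ := exists_mult h.ord hψ
  obtain ⟨B⟩ := h.nonempty_BD
  have d3 : m (irrOne G) = 1 := by
    have := (m1 (irrOne G)).symm.trans
      ((classInner_eq_mul_conj_one _ _).symm.trans (D.μ c).2.classInner_self)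
    exact_mod_cast this
  rw [if_pos rfl, h5] at d2
  rw [h5] at d1
  rw [show charDegree ((D.μ c : G → ℂ) * fun g => conj ((D.μ c : G → ℂ) g)) = _ from d1, ← Finset.add_sum_erase _ _ (Finset.mem_univ (irrOne G)), d3,
    charDegree_irrOne] at m2
  rw [show fd p x ((D.μ c : G → ℂ) * fun g => conj ((D.μ c : G → ℂ) g)) = _ from d2, ← Finset.add_sum_erase _ _ (Finset.mem_univ (irrOne G)), d3,
    fd_one h.ord] at m3
  have h6 : ∀ ξ ∈ Finset.univ.erase (irrOne G), (p + 1) * (m ξ * fd p x (ξ : G → ℂ)) ≤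
      2 * (m ξ * charDegree (ξ : G → ℂ)) := fun ξ hξ => by
    rcases Nat.eq_zero_or_pos (m ξ) with e | e
    · simp [e]
    rw [mul_left_comm, mul_left_comm 2]
    refine Nat.mul_le_mul_left _ (B.ratio hg ht (Finset.ne_of_mem_erase hξ) fun y hy =>
      hψ.charKer_le_of_constituent ξ.2 (by rw [m1]; exact_mod_cast e.ne') (hψ.mem_charKer.mpr ?_))
    simp only [Pi.mul_apply, Complex.mul_conj, Complex.normSq_eq_norm_sq,
      (D.μ c).2.isCharacter.mem_charCenter.mp ((D.μ c).2.center_le_charCenter (hK hy))]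
  have h7 := Finset.sum_le_sum h6
  rw [← Finset.mul_sum, ← Finset.mul_sum] at h7
  have h8 : eN h.ord ≠ 1 := fun e => hx (Subgroup.mem_center_iff.mpr fun g =>
    (central_of_e_one h.ord h.nsq (fun g hg => (actN_eq_one_iff h.ord ⟨g, hg⟩).mp
      (Subgroup.mem_bot.mp (Subgroup.card_eq_one.mp e ▸ actN_mem h.ord _)))
      (D.μ c).2.isCharacter hd hf g).eq.symm)
  have h9 := eN_mul' h.ord
  have h10 := Nat.mul_le_mul_left (eN h.ord) (show 2 ≤ tN h.ord by have := tN_pos h.ord; omega)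
  obtain ⟨e, he⟩ : ∃ e, eN h.ord = e + 1 := ⟨eN h.ord - 1, by have := eN_pos h.ord; omega⟩
  rw [he] at m2 m3 h8 h9 h10 ⊢
  rw [show ∑ ξ ∈ Finset.univ.erase (irrOne G), m ξ * fd p x (ξ : G → ℂ) = e by omega,
    show ∑ ξ ∈ Finset.univ.erase (irrOne G), m ξ * charDegree (ξ : G → ℂ) = (e + 2) * e by
      nlinarith, ← mul_assoc] at h7
  have := Nat.le_of_mul_le_mul_right h7 (by omega)
  omega

theorem le_degree_of_ngen (hx : orderOf x = p) (hn : ¬ p ^ 2 ∣ Nat.card G) (hg : NGen x)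
    {χ : G → ℂ} (hχ : IsIrrCharacter G χ) (hz : x ∉ charCenter χ) : p ≤ 2 * charDegree χ + 1 := by
  haveI := hχ.isCharacter.charKer_normal
  haveI := Fintype.ofFinite (G ⧸ charKer χ)
  obtain ⟨K, h⟩ := exists_PO hx hn
  have hx' := orderOf_mk_of_not_dvd hx (charKer χ) fun e =>
    hz (charKer_le_charCenter χ (h.mem_of_dvd _ e))
  obtain ⟨K', h'⟩ := exists_PO hx' fun e => hn (e.trans (Subgroup.card_quotient_dvd_card _))
  have hψ := hχ.deflate le_rfl
  have hd : charDegree (deflate (charKer χ) χ) = charDegree χ :=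
    charDegree_eq_of ((deflate_mk le_rfl 1).trans hχ.isCharacter.charDegree_cast.symm)
  by_contra hc
  have hp2 := hχ.charDegree_pos
  obtain ⟨-, ht, e | e⟩ := h'.half (hg.mk _) (χ := ⟨_, hψ⟩) (fun g e => Subgroup.mem_bot.mp
    (charKer_deflate_charKer hχ.isClassFunction ▸ hψ.isCharacter.mem_charKer.mpr e))
    (show charDegree (deflate (charKer χ) χ) + 1 < p by omega) fun e => hz
      (hχ.mem_charCenter_of_commutator fun g => (QuotientGroup.eq_one_iff _).mp (by
        simp [← Subgroup.mem_center_iff.mp e]))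
  · have := e.1.symm.trans hd
    omega
  · have h9 := eN_mul' h'.ord
    have h10 := Nat.mul_le_mul_left (eN h'.ord) (show 2 ≤ tN h'.ord by have := tN_pos h'.ord; omega)
    rw [show charDegree _ = _ from hd] at e
    omega

theorem exists_noncentral_constituent (hx : orderOf x = p) (hn : ¬ p ^ 2 ∣ Nat.card G)
    (hne : NN x ≠ ⊤) {χ : G → ℂ} (hχ : IsCharacter G χ) (hf : ∀ g, χ g = χ 1 → g = 1)
    (S : Subgroup G) [S.Normal] [Fintype S] (hS : x ∈ S) : ∃ ψ, IsIrrCharacter S ψ ∧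
      classInner (fun g : S => χ g) ψ ≠ 0 ∧ (⟨x, hS⟩ : S) ∉ charCenter ψ := by
  by_contra hc
  push Not at hc
  obtain ⟨K, h⟩ := exists_PO hx hn
  refine NN_ne_top_of_normal h hne hS (eq_top_iff.mpr fun g _ => mem_normalizer_of_commute (p := p)
    (by rw [← hx, ← Subgroup.orderOf_coe]) (commutatorElement_eq_one_iff_commute.mp
      (Subtype.ext (hf _ ((hχ.comp S.subtype).mem_charKer.mp
        ((hχ.comp S.subtype).mem_charKer_of_forall_constituent fun ψ hψ hne => apply_of_mem_charKer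
          (hψ.isCharacter.commutator_mem_charKer (hc ψ hψ hne) g)))))))

theorem le_degree (hx : orderOf x = p) (hn : ¬ p ^ 2 ∣ Nat.card G)
    (hne : NN x ≠ ⊤) {χ : G → ℂ} (hχ : IsCharacter G χ) (hf : ∀ g, χ g = χ 1 → g = 1) :
    p ≤ 2 * charDegree χ + 1 := by
  haveI := Fintype.ofFinite (Subgroup.normalClosure {x})
  obtain ⟨ψ, h1, h2, h3⟩ := exists_noncentral_constituent hx hn hne hχ hf _ (mem_ncl x)
  have h4 := le_degree_of_ngen (by rw [← hx, ← Subgroup.orderOf_coe])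
    (fun e => hn (e.trans (Subgroup.card_subgroup_dvd_card _))) (ngen_ncl hx hn) h1 h3
  have h5 := (hχ.comp (Subgroup.normalClosure {x}).subtype).degree_le_of_constituent h1 h2
    hχ.charDegree_cast.symm h1.isCharacter.charDegree_cast.symm
  omega

end Cfsg.Agent.H19
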