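import Cfsg.Agent.H19.ONi

/-! Symmetric designs and their incidence matrices. -/

set_option autoImplicit false

namespace Cfsg.Agent.H19.ON

open Finset Matrix
open scoped Classical

variable {Ω B : Type*} [Fintype Ω] [Fintype B]

/-- a symmetric design -/
structure Des (inc : Ω → B → Prop) (k l : ℕ) : Prop where
  card : Fintype.card Ω = Fintype.card B
  blk : ∀ b, (univ.filter fun w => inc w b).card = k
  pt : ∀ w, (univ.filter fun b => inc w b).card = k
  pp : ∀ w w', w ≠ w' → (univ.filter fun b => inc w b ∧ inc w' b).card = l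
  lt : l < k

/-- incidence matrix -/
noncomputable def im (inc : Ω → B → Prop) : Matrix Ω B ℚ := of fun w b => if inc w b then 1 else 0

/-- all ones matrix -/
def jm (α β : Type*) : Matrix α β ℚ := of fun _ _ => 1

theorem jm_mul_jm {α β : Type*} : jm α Ω * jm Ω β = (Fintype.card Ω : ℚ) • jm α β := by
  ext; simp [jm, mul_apply]

namespace Des
variable {inc : Ω → B → Prop} {k l : ℕ} (h : Des inc k l)
include h

theorem mul_tr : im inc * (im inc)ᵀ = ((k : ℚ) - l) • (1 : Matrix Ω Ω ℚ) + (l : ℚ) • jm Ω Ω := by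
  ext w w'
  simp only [im, jm, mul_apply, of_apply, transpose_apply, ite_zero_mul_ite_zero, mul_one,
    sum_boole, Matrix.add_apply, Matrix.smul_apply, smul_eq_mul, one_apply]
  split_ifs with e
  · subst e; simp [h.pt]
  · simp [h.pp w w' e]

theorem mul_j {α : Type*} : im inc * jm B α = (k : ℚ) • jm Ω α := by
  ext w a; simp [im, jm, mul_apply, h.pt]

theorem j_mul {α : Type*} : jm α Ω * im inc = (k : ℚ) • jm α B := by
  ext a b; simp [im, jm, mul_apply, h.blk]

theorem eqn (w : Ω) : k * k + l = k + l * Fintype.card Ω := by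
  have h1 : jm Ω Ω * (im inc * (im inc)ᵀ) = ((k : ℚ) * k) • jm Ω Ω := by
    rw [← Matrix.mul_assoc, h.j_mul, Matrix.smul_mul, mul_smul]
    congr 1
    have := congrArg transpose (h.mul_j (α := Ω))
    rwa [transpose_mul, transpose_smul] at this
  rw [h.mul_tr, Matrix.mul_add, Matrix.mul_smul, Matrix.mul_smul, Matrix.mul_one, jm_mul_jm] at h1
  have h2 := congrFun (congrFun h1 w) w
  simp only [jm, Matrix.add_apply, Matrix.smul_apply, of_apply, smul_eq_mul, mul_one] at h2
  exact_mod_cast (by linarith : (k : ℚ) * k + l = k + l * Fintype.card Ω)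

theorem exists_inv : ∃ A : Matrix B Ω ℚ, im inc * A = 1 ∧ A * im inc = 1 := by
  have h1 : (0 : ℚ) < k - l := sub_pos.2 (by exact_mod_cast h.lt)
  have h2 : (0 : ℚ) < k - l + l * Fintype.card Ω := by positivity
  have key : im inc * ((im inc)ᵀ * (((k : ℚ) - l)⁻¹ • ((1 : Matrix Ω Ω ℚ) -
      (l / ((k : ℚ) - l + l * Fintype.card Ω)) • jm Ω Ω))) = 1 := by
    rw [← Matrix.mul_assoc, h.mul_tr]
    simp only [Matrix.mul_smul, Matrix.mul_sub, Matrix.add_mul, Matrix.smul_mul, Matrix.mul_one,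
      Matrix.one_mul, jm_mul_jm]
    match_scalars <;> field_simp <;> ring
  exact ⟨_, key, (mul_eq_one_comm_of_equiv (Fintype.equivOfCardEq h.card)).1 key⟩

theorem inv_j {A : Matrix B Ω ℚ} (hA : A * im inc = 1) {α : Type*} :
    (k : ℚ) • (A * jm Ω α) = jm B α := by
  rw [← Matrix.mul_smul, ← h.mul_j, ← Matrix.mul_assoc, hA, Matrix.one_mul]

theorem bb (b b' : B) (hb : b ≠ b') : (univ.filter fun w => inc w b ∧ inc w b').card = l := by
  obtain ⟨A, -, hA⟩ := h.exists_inv
  have h1 : (im inc)ᵀ * im inc = ((k : ℚ) - l) • (1 : Matrix B B ℚ) + (l : ℚ) • jm B B := by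
    calc _ = A * (im inc * (im inc)ᵀ) * im inc := by
          rw [← Matrix.mul_assoc, hA, Matrix.one_mul]
      _ = _ := by
          rw [h.mul_tr, Matrix.mul_add, Matrix.add_mul, Matrix.mul_smul, Matrix.mul_smul,
            Matrix.mul_one, Matrix.smul_mul, Matrix.smul_mul, hA, Matrix.mul_assoc, h.j_mul,
            Matrix.mul_smul, h.inv_j hA]
  have h2 := congrFun (congrFun h1 b) b'
  simp only [im, jm, mul_apply, of_apply, transpose_apply, ite_zero_mul_ite_zero, mul_one,
    sum_boole, Matrix.add_apply, Matrix.smul_apply, smul_eq_mul, one_apply, if_neg hb] at h2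
  exact_mod_cast (by linarith : ((univ.filter fun w => inc w b ∧ inc w b').card : ℚ) = l)

theorem dual : Des (fun b w => inc w b) k l := ⟨h.card.symm, h.pt, h.blk, h.bb, h.lt⟩

theorem ext_pt {w w' : Ω} (e : ∀ b, inc w b → inc w' b) : w = w' := by
  by_contra h1
  have := h.pp w w' h1
  rw [filter_congr (q := fun b => inc w b) fun b _ => ⟨And.left, fun h => ⟨h, e b h⟩⟩, h.pt] at this
  exact h.lt.ne' this

variable {G : Type*} [Group G] [MulAction G Ω] [MulAction G B]
  (hG : ∀ (g : G) w b, inc (g • w) (g • b) ↔ inc w b)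

omit h in
theorem am_inv {α β γ : Type*} [Fintype β] [MulAction G α] [MulAction G β] [MulAction G γ]
    {M : Matrix α β ℚ} {N : Matrix β γ ℚ} {g : G} (hM : ∀ a b, M (g • a) (g • b) = M a b)
    (hN : ∀ a b, N (g • a) (g • b) = N a b) (a : α) (c : γ) :
    (M * N) (g • a) (g • c) = (M * N) a c := by
  rw [mul_apply, mul_apply, ← Equiv.sum_comp (MulAction.toPerm g)]
  simp [hM, hN]

omit [Fintype B] h in
theorem inv_two (h2 : Two G Ω) {M : Matrix Ω Ω ℚ} (hM : ∀ (g : G) a b, M (g • a) (g • b) = M a b) :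
    ∃ α β : ℚ, M = α • (1 : Matrix Ω Ω ℚ) + β • jm Ω Ω := by
  rcases isEmpty_or_nonempty Ω with h0 | ⟨⟨x⟩⟩
  · exact ⟨0, 0, Subsingleton.elim _ _⟩
  obtain ⟨β, hβ⟩ : ∃ β, ∀ a b, a ≠ b → M a b = β := by
    by_cases h1 : ∃ a b : Ω, a ≠ b
    · obtain ⟨a, b, hab⟩ := h1
      refine ⟨M a b, fun c d hcd => ?_⟩
      obtain ⟨g, rfl, rfl⟩ := h2.two hab hcd
      exact hM g a b
    · exact ⟨0, fun a b hab => (h1 ⟨a, b, hab⟩).elim⟩
  refine ⟨M x x - β, β, Matrix.ext fun a b => ?_⟩
  by_cases e : a = b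
  · obtain ⟨g, rfl⟩ := h2.trans x a
    subst e
    simp [jm, hM]
  · simp [jm, e, hβ a b e]

include hG

omit [Fintype Ω] [Fintype B] h in
theorem im_inv (g : G) (w : Ω) (b : B) : im inc (g • w) (g • b) = im inc w b := by simp [im, hG]

omit h in
theorem ai_inv {A : Matrix B Ω ℚ} (h1 : im inc * A = 1) (h2 : A * im inc = 1) (g : G) (b : B)
    (w : Ω) : A (g • b) (g • w) = A b w := by
  have key : im inc * (of fun b w => A (g • b) (g • w)) = 1 := by
    ext w w'
    have := congrFun (congrFun h1 (g • w)) (g • w')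
    rw [mul_apply, ← Equiv.sum_comp (MulAction.toPerm g)] at this
    simpa [mul_apply, im_inv hG, one_apply] using this
  have : (of fun b w => A (g • b) (g • w)) = A := by
    rw [← Matrix.one_mul (of _), ← h2, Matrix.mul_assoc, key, Matrix.mul_one]
  exact congrFun (congrFun this b) w

theorem two_dual (h2 : Two G Ω) : Two G B := by
  obtain ⟨A, h3, h4⟩ := h.exists_inv
  refine ⟨fun {x y u v} hxy huv => ?_, fun g hg => h2.faith g fun w => h.ext_pt fun b hb => ?_⟩
  · let M : Matrix B B ℚ := of fun a b => if ∃ g : G, g • x = a ∧ g • y = b then 1 else 0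
    have hM : ∀ (g : G) a b, M (g • a) (g • b) = M a b := fun g a b => by
      refine if_congr ⟨fun ⟨k, h1, h2⟩ => ⟨g⁻¹ * k, ?_, ?_⟩, fun ⟨k, h1, h2⟩ => ⟨g * k, ?_, ?_⟩⟩
        rfl rfl <;> simp [mul_smul, h1, h2]
    obtain ⟨α, β, e⟩ := inv_two h2 (M := im inc * M * A) fun g =>
      am_inv (am_inv (im_inv hG g) (hM g)) (ai_inv hG h3 h4 g)
    have e2 : M = α • (1 : Matrix B B ℚ) + β • jm B B := by
      calc M = A * (im inc * M * A) * im inc := by
            rw [Matrix.mul_assoc, Matrix.mul_assoc, h4, Matrix.mul_one, ← Matrix.mul_assoc, h4,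
              Matrix.one_mul]
        _ = _ := by
            rw [e, Matrix.mul_add, Matrix.add_mul, Matrix.mul_smul, Matrix.mul_smul,
              Matrix.mul_one, Matrix.smul_mul, Matrix.smul_mul, h4, Matrix.mul_assoc, h.j_mul,
              Matrix.mul_smul, h.inv_j h4]
    have e3 := congrFun (congrFun e2 x) y
    have e4 := congrFun (congrFun e2 u) v
    simp only [M, of_apply, Matrix.add_apply, Matrix.smul_apply, one_apply, if_neg hxy, if_neg huv, jm] at e3 e4
    rw [if_pos ⟨1, one_smul _ _, one_smul _ _⟩, ← e4] at e3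
    by_contra h5
    rw [if_neg h5] at e3
    exact one_ne_zero e3
  · rwa [← hg b, hG] at hb

theorem anti (h2 : Two G Ω) {x u : Ω} {y v : B} (hxy : ¬ inc x y) (huv : ¬ inc u v) :
    ∃ g : G, g • x = u ∧ g • y = v := by
  obtain ⟨A, h3, h4⟩ := h.exists_inv
  let M : Matrix Ω B ℚ := of fun a b => if ∃ g : G, g • x = a ∧ g • y = b then 1 else 0
  have hM : ∀ (g : G) a b, M (g • a) (g • b) = M a b := fun g a b => by
    refine if_congr ⟨fun ⟨k, h1, h2⟩ => ⟨g⁻¹ * k, ?_, ?_⟩, fun ⟨k, h1, h2⟩ => ⟨g * k, ?_, ?_⟩⟩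
      rfl rfl <;> simp [mul_smul, h1, h2]
  obtain ⟨α, β, e⟩ := inv_two h2 (M := M * A) fun g => am_inv (hM g) (ai_inv hG h3 h4 g)
  have e2 : M = α • im inc + β • (k : ℚ) • jm Ω B := by
    calc M = M * A * im inc := by rw [Matrix.mul_assoc, h4, Matrix.mul_one]
      _ = _ := by rw [e, Matrix.add_mul, Matrix.smul_mul, Matrix.smul_mul, Matrix.one_mul, h.j_mul]
  have e3 := congrFun (congrFun e2 x) y
  have e4 := congrFun (congrFun e2 u) v
  simp only [M, im, of_apply, Matrix.add_apply, Matrix.smul_apply, if_neg hxy, if_neg huv, jm] at e3 e4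
  rw [if_pos ⟨1, one_smul _ _, one_smul _ _⟩, ← e4] at e3
  by_contra h5
  rw [if_neg h5] at e3
  exact one_ne_zero e3

theorem card_fix (g : G) :
    (univ.filter fun w : Ω => g • w = w).card = (univ.filter fun b : B => g • b = b).card := by
  obtain ⟨A, h3, h4⟩ := h.exists_inv
  let P : Matrix Ω Ω ℚ := of fun a b => if g • a = b then 1 else 0
  let Q : Matrix B B ℚ := of fun a b => if g • a = b then 1 else 0
  have h1 : P * im inc = im inc * Q := by
    ext w b
    simp only [P, Q, mul_apply, of_apply, ite_mul, one_mul, zero_mul, mul_ite, mul_one, mul_zero,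
      sum_ite_eq, mem_univ, if_true]
    simp only [smul_eq_iff_eq_inv_smul, sum_ite_eq', mem_univ, if_true]
    rw [← im_inv hG g w, smul_inv_smul]
  have h2 : P.trace = Q.trace := by
    rw [← Matrix.mul_one P, ← h3, ← Matrix.mul_assoc, h1, trace_mul_cycle, h4, Matrix.one_mul]
  simp only [P, Q, trace, Matrix.diag, of_apply, sum_boole] at h2
  exact_mod_cast h2

end Des

end Cfsg.Agent.H19.ON
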