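import Cfsg.Agent.H19.ONj
import Cfsg.Agent.S0035
import Cfsg.Agent.S0038
import Cfsg.Agent.H10.Cores

/-! Ito's theorem: 2-transitive symmetric designs with a block stabiliser unfaithful on the block. -/

set_option autoImplicit false

namespace Cfsg.Agent.H19.ON

open Finset Subgroup
open scoped Classical

variable {Ω B : Type*} [Fintype Ω] [Fintype B] {inc : Ω → B → Prop} {k l : ℕ}
  {G : Type*} [Group G] [MulAction G Ω] [MulAction G B]

variable (G inc) in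
/-- pointwise stabiliser of a block -/
def Kb (b : B) : Subgroup G where
  carrier := {g | ∀ w, inc w b → g • w = w}
  one_mem' := fun _ _ => one_smul _ _
  mul_mem' := fun ha hb w hw => by rw [mul_smul, hb w hw, ha w hw]
  inv_mem' := fun ha w hw => inv_fix (ha w hw)

theorem eq_of_card {α : Type*} [Fintype α] {p q : α → Prop} {_ : DecidablePred p}
    {_ : DecidablePred q} (h : ∀ a, p a → q a)
    (e : (univ.filter q).card = (univ.filter p).card) (a : α) (ha : q a) : p a := by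
  have := eq_of_subset_of_card_le (s := univ.filter p) (t := univ.filter q)
    (fun a ha => by simpa using h a (by simpa using ha)) e.le
  simpa using (this ▸ mem_filter.2 ⟨mem_univ a, ha⟩ : a ∈ univ.filter p)

namespace Des
variable (h : Des inc k l) (hG : ∀ (g : G) w b, inc (g • w) (g • b) ↔ inc w b)
include h hG

theorem fixb {b : B} {t : G} (ht : t ∈ Kb inc G b) : t • b = b :=
  (h.dual.ext_pt fun w hw => by rwa [← ht w hw, hG]).symm

theorem fix_of_pair {b c : B} {t : G} (ht : t ∈ Kb inc G b) {z : Ω} (h1 : inc z c)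
    (h2 : inc (t • z) c) (h3 : ¬ inc (t • z) b) : t • c = c := by
  by_contra h4
  have hcb : c ≠ b := fun e => h3 (e ▸ h2)
  exact h3 (eq_of_card (p := fun w => inc w c ∧ inc w b) (q := fun w => inc w c ∧ inc w (t • c))
    (fun w hw => ⟨hw.1, by rw [← ht w hw.2, hG]; exact hw.1⟩)
    ((h.bb c _ (Ne.symm h4)).trans (h.bb c b hcb).symm) _ ⟨h2, (hG t z c).2 h1⟩).2

theorem off {b : B} {t : G} (ht : t ∈ Kb inc G b) {z : Ω} (hz : ¬ inc z b) : ¬ inc (t • z) b := by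
  rwa [← h.fixb hG ht, hG]

theorem one_fix (hf : ∀ g : G, (∀ x : Ω, g • x = x) → g = 1) (hk : l + 1 < k) {b : B} {t : G}
    (ht : t ∈ Kb inc G b) (h1 : t ≠ 1) {w w' : Ω} (hw : ¬ inc w b) (hw' : ¬ inc w' b)
    (e : t • w = w) (e' : t • w' = w') : w = w' := by
  by_contra hne
  have k1 : ∀ z w : Ω, t • z ≠ z → ¬ inc w b → t • w = w → ∀ c,
      (inc z c ∧ inc (t • z) c ↔ inc z c ∧ inc w c) := fun z w hz hw e c => by
    have h2 : ∀ c, inc z c ∧ inc w c → inc z c ∧ inc (t • z) c := fun c hc => ⟨hc.1, by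
      rw [← h.fix_of_pair hG ht hc.2 (e.symm ▸ hc.2) (e.symm ▸ hw), hG]; exact hc.1⟩
    exact ⟨eq_of_card h2 ((h.pp _ _ hz.symm).trans (h.pp z w fun e' => hz (e' ▸ e)).symm) c, h2 c⟩
  have k2 : ∀ z u : Ω, t • z ≠ z → ¬ inc u b → t • u = u → w ≠ u → ∀ c,
      (inc w c ∧ inc u c ↔ inc z c ∧ inc w c) := fun z u hz hu e1 h3 c => by
    have h2 : ∀ c, inc z c ∧ inc w c → inc w c ∧ inc u c := fun c hc =>
      ⟨hc.2, ((k1 z u hz hu e1 c).1 ((k1 z w hz hw e c).2 hc)).2⟩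
    exact ⟨eq_of_card h2 ((h.pp _ _ h3).trans (h.pp z w fun e' => hz (e' ▸ e)).symm) c, h2 c⟩
  obtain ⟨z, hz⟩ : ∃ z : Ω, t • z ≠ z := by
    by_contra h2; push Not at h2; exact h1 (hf t h2)
  obtain ⟨c, h2, h3⟩ : ∃ c, inc w c ∧ ¬ inc z c := by
    by_contra h2; push Not at h2; exact hz (h.ext_pt h2 ▸ e)
  have h4 : univ.filter (fun u => inc u c) ⊆ insert w (univ.filter fun u => inc u c ∧ inc u b) := by
    intro u hu
    simp only [mem_filter, mem_univ, true_and, mem_insert] at hu ⊢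
    by_contra h5
    push Not at h5
    by_cases h6 : t • u = u
    · exact h3 ((k2 z u hz (h5.2 hu) h6 (Ne.symm h5.1) c).1 ⟨h2, hu⟩).1
    · exact h3 ((k2 z w' hz hw' e' hne c).1 ((k2 u w' h6 hw' e' hne c).2 ⟨hu, h2⟩)).1
  have h5 := (card_le_card h4).trans (card_insert_le _ _)
  rw [h.blk, h.bb c b fun e => hw (e ▸ h2)] at h5
  omega

theorem norm_fix {b c : B} {s t : G} (hs : s ∈ Kb inc G b) (ht : t ∈ Kb inc G b)
    (h1 : ∀ z, ¬ inc z b → s • z ≠ z) (hc : s • c = c) : s • t • c = t • c := by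
  let m : Ω → ℕ := fun w => (univ.filter fun d : B => s • d = d ∧ inc w d).card
  have hm : ∀ w, ¬ inc w b → m w = l := fun w hw => by
    rw [← h.pp w (s • w) (h1 w hw).symm]
    exact congrArg Finset.card (filter_congr fun d _ => ⟨fun e => ⟨e.2, by rw [← e.1, hG]; exact e.2⟩,
      fun e => ⟨h.fix_of_pair hG hs e.1 e.2 (h.off hG hs hw), e.1⟩⟩)
  have key : ∀ c, ∑ w, (if inc w c then m w else 0) =
      ∑ d ∈ univ.filter (fun d : B => s • d = d), if d = c then k else l := fun c => by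
    have : ∀ w, (if inc w c then m w else 0) = ∑ d ∈ univ.filter (fun d : B => s • d = d),
        if inc w d ∧ inc w c then 1 else 0 := fun w => by
      split_ifs with e <;> simp [m, e, filter_filter]
    rw [sum_congr rfl fun w _ => this w, sum_comm]
    refine sum_congr rfl fun d _ => ?_
    rw [sum_boole]
    split_ifs with e
    · subst e; simpa using h.blk d
    · simpa using h.bb d c e
  have h2 : ∑ w, (if inc w (t • c) then m w else 0) = ∑ w, if inc w c then m w else 0 := by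
    rw [← Equiv.sum_comp (MulAction.toPerm t)]
    refine sum_congr rfl fun w _ => if_congr (hG t w c) ?_ rfl
    change m (t • w) = m w
    by_cases hw : inc w b
    · rw [ht w hw]
    · rw [hm w hw, hm _ (h.off hG ht hw)]
  by_contra h3
  rw [key, key, sum_congr rfl (g := fun _ => l) fun d hd => if_neg (by
    rintro rfl; exact h3 (mem_filter.1 hd).2)] at h2
  exact (sum_lt_sum (fun d _ => by have := h.lt; split_ifs <;> omega)
    ⟨c, by simpa using hc, by simpa using h.lt⟩).ne h2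

omit [Fintype Ω] [Fintype B] h in
theorem conj_K (g : G) {b : B} {n : G} (hn : n ∈ Kb inc G b) : g * n * g⁻¹ ∈ Kb inc G (g • b) :=
  fun w hw => by
    rw [mul_smul, mul_smul, hn _ (by rwa [← hG g, smul_inv_smul]), smul_inv_smul]

variable [Finite G]

theorem exists_semi (hf : ∀ g : G, (∀ x : Ω, g • x = x) → g = 1) (hk : l + 1 < k) {b : B}
    (hb : ∀ w, ¬ inc w b → ∃ g : G, g • b = b ∧ g • w ≠ w) (h0 : Kb inc G b ≠ ⊥) :
    ∃ M ≤ Kb inc G b, M ≠ ⊥ ∧ (∀ g : G, g • b = b → ∀ n ∈ M, g * n * g⁻¹ ∈ M) ∧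
      ∀ n ∈ M, n ≠ 1 → ∀ z, ¬ inc z b → n • z ≠ z := by
  have hK : ∀ g : G, g • b = b → ∀ n ∈ Kb inc G b, g * n * g⁻¹ ∈ Kb inc G b := fun g hg n hn => by
    simpa [hg] using conj_K hG g hn
  by_cases h1 : ∀ n ∈ Kb inc G b, n ≠ 1 → ∀ z, ¬ inc z b → n • z ≠ z
  · exact ⟨_, le_rfl, h0, hK, h1⟩
  have fr : ∀ w, ¬ inc w b → ∀ n ∈ Kb inc G b, n ≠ 1 → n • w = w →
      IsFrobeniusComplement (MulAction.stabilizer (Kb inc G b) w) := fun w hw n hn h2 h3 => by
    refine ⟨fun e => h2 (congrArg Subtype.val (mem_bot.1 (e ▸ h3 : (⟨n, hn⟩ : Kb inc G b) ∈ ⊥))),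
      fun e => ?_, fun g hg => eq_bot_iff.2 fun x hx => ?_⟩
    · obtain ⟨g, h4, h5⟩ := hb w hw
      have h6 : (⟨_, hK g⁻¹ (inv_fix h4) n hn⟩ : Kb inc G b) ∈ MulAction.stabilizer _ w :=
        e ▸ mem_top _
      refine h5 (h.one_fix hG hf hk hn h2 (by rwa [← h4, hG]) hw ?_ h3)
      change (g⁻¹ * n * g⁻¹⁻¹) • w = w at h6
      rwa [inv_inv, mul_smul, mul_smul, inv_smul_eq_iff] at h6
    · by_contra h4
      obtain ⟨y, hy, e⟩ := (mem_smul_pointwise_iff_exists _ _ _).1 hx.2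
      refine hg (h.one_fix hG hf hk x.2 (fun e => h4 (Subtype.ext e)) (h.off hG g.2 hw) hw ?_ hx.1)
      rw [← e]
      change ((g : G) * y * (g : G)⁻¹) • (g : G) • w = (g : G) • w
      rw [mul_smul, mul_smul, inv_smul_smul]
      exact congrArg _ hy
  push Not at h1
  obtain ⟨n, hn, h2, w, hw, h3⟩ := h1
  obtain ⟨N, hN, -, hc⟩ := S0035.result _ (fr w hw n hn h2 h3)
  have key : ∀ x : Kb inc G b, x ∈ N ↔ x = 1 ∨ ∀ z, ¬ inc z b → (x : G) • z ≠ z := fun x => by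
    rw [← SetLike.mem_coe, hN]
    change x = 1 ∨ _ ↔ _
    by_cases hx : x = 1
    · simp [hx]
    refine or_congr_right ⟨fun h4 z hz e => ?_, fun h4 g e => ?_⟩
    · obtain ⟨g, hg⟩ := S0038.result _ _ (fr z hz x x.2 (fun e => hx (Subtype.ext e)) e)
        (fr w hw n hn h2 h3)
      exact h4 g (hg ▸ e)
    · obtain ⟨y, hy, e⟩ := (mem_smul_pointwise_iff_exists _ _ _).1 e
      refine h4 _ (h.off hG g.2 hw) ?_
      rw [← e]
      change ((g : G) * y * (g : G)⁻¹) • _ = _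
      rw [mul_smul, mul_smul, inv_smul_smul]
      exact congrArg _ hy
  refine ⟨N.map (Kb inc G b).subtype, map_subtype_le _, fun e => (fr w hw n hn h2 h3).2.1 ?_,
    ?_, ?_⟩
  · rw [map_eq_bot_iff_of_injective _ (subtype_injective _)] at e
    exact isComplement'_bot_left.1 (e ▸ hc)
  · rintro g hg _ ⟨x, hx, rfl⟩
    refine ⟨⟨_, hK g hg x x.2⟩, (key _).2 (((key x).1 hx).imp (fun e => Subtype.ext (by simp [e]))
      fun h4 z hz e => h4 (g⁻¹ • z) (by rwa [← hG g, smul_inv_smul, hg]) ?_), rfl⟩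
    change (g * x * g⁻¹) • z = z at e
    rwa [mul_smul, mul_smul, smul_eq_iff_eq_inv_smul] at e
  · rintro _ ⟨x, hx, rfl⟩ h4
    exact ((key x).1 hx).resolve_left fun e => h4 (by simp [e])

/-- **Ito's theorem**. -/
theorem ito (h2 : Two G Ω) (hk : 2 ≤ k) {b : B}
    (hb : ∀ w, ¬ inc w b → ∃ g : G, g • b = b ∧ g • w ≠ w) (hw : ∃ w, ¬ inc w b)
    (h0 : Kb inc G b ≠ ⊥) :
    ∃ (L : Subgroup G) (F : Type) (_ : Field F) (_ : Fintype F) (n : ℕ), 3 ≤ n ∧ L.Normal ∧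
      centralizer (L : Set G) = ⊥ ∧
      Nonempty (L ≃* Matrix.ProjectiveSpecialLinearGroup (Fin n) F) ∧
      Nat.card B * (Fintype.card F - 1) = Fintype.card F ^ n - 1 := by
  obtain ⟨w, hw⟩ := hw
  have hT := h.two_dual hG h2
  have he := h.eqn w
  have hl := h.lt
  have hl0 : 0 < l := Nat.pos_of_ne_zero (by rintro rfl; nlinarith)
  have hk2 : l + 1 < k := by
    by_contra h1
    obtain rfl : k = l + 1 := by omega
    obtain ⟨g, h3, h4⟩ := hb w hw
    have h5 := card_le_univ (insert w (insert (g • w) (univ.filter fun u => inc u b)))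
    rw [card_insert_of_notMem (by simp [hw, h4.symm]),
      card_insert_of_notMem (by simpa using (by rwa [← h3, hG] : ¬ inc (g • w) b)), h.blk] at h5
    nlinarith
  obtain ⟨M, hM, hM0, hMn, hs⟩ := h.exists_semi hG h2.faith hk2 hb h0
  have hfb : ∀ n ∈ M, n • b = b := fun n hn => h.fixb hG (hM hn)
  have other : ∀ n ∈ M, n ≠ 1 → ∃ c, c ≠ b ∧ n • c = c := fun n hn h1 => by
    obtain ⟨c, hc⟩ := card_pos.1 ((h.pp _ _ (hs n hn h1 w hw).symm).symm ▸ hl0)
    rw [mem_filter] at hc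
    exact ⟨c, fun e => hw (e ▸ hc.2.1),
      h.fix_of_pair hG (hM hn) hc.2.1 hc.2.2 (h.off hG (hM hn) hw)⟩
  obtain ⟨n₀, hn₀, h1⟩ := (bot_or_exists_ne_one M).resolve_left hM0
  obtain ⟨c, hcb, -⟩ := other n₀ hn₀ h1
  -- an element of `M` moving `c`
  have hmv : (Ob M c).ncard ≠ 1 := fun e => by
    refine h1 (hT.faith n₀ fun d => ?_)
    by_cases hd : d = b
    · rw [hd, hfb n₀ hn₀]
    obtain ⟨x, h3, h4⟩ := hT.two (Ne.symm hd) hcb.symm
    obtain ⟨a, ha⟩ := Set.ncard_eq_one.1 e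
    have h5 : (x * n₀ * x⁻¹) • c ∈ Ob M c := ⟨_, hMn x h3 n₀ hn₀, rfl⟩
    have h6 : c ∈ Ob M c := ⟨1, one_mem _, one_smul _ _⟩
    rw [ha, Set.mem_singleton_iff] at h5 h6
    rwa [← h6, ← h4, mul_smul, mul_smul, inv_smul_smul, smul_left_cancel_iff] at h5
  obtain ⟨p, hp, hd⟩ := Nat.exists_prime_and_dvd hmv
  haveI := Fact.mk hp
  obtain ⟨x, hx⟩ := exists_prime_orderOf_dvd_card' (G := M) p
    (card_Ob M (M ⊓ MulAction.stabilizer G c) c (fun _ => Iff.rfl) ▸ hd.mul_right _)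
  have hx1 : (x : G) ≠ 1 := fun e => hp.one_lt.ne' (by rw [← hx, (Subtype.ext e : x = 1), orderOf_one])
  obtain ⟨d, hdb, hxd⟩ := other x x.2 hx1
  obtain ⟨y, hy1, hy2⟩ := hT.two hdb.symm hcb
  set β := y * x * y⁻¹ with hβ
  have hβ1 : β ≠ 1 := by simpa [hβ] using hx1
  have hβb : β • b = b := by rw [hβ, ← hy2, mul_smul, mul_smul, inv_smul_smul, hxd]
  have hβK : β ∈ Kb inc G c := hy1 ▸ conj_K hG y (hM x.2)
  have ti : ∀ (z : G) (e : B), e ≠ z • b → ∀ n ∈ M, z * n * z⁻¹ ∈ Kb inc G e → n = 1 :=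
    fun z e he n hn h3 => by
      by_contra h4
      refine he (h.dual.ext_pt fun u hu => ?_)
      by_contra h5
      refine hs n hn h4 (z⁻¹ • u) (by rwa [← hG z, smul_inv_smul]) ?_
      have := h3 u hu
      rwa [mul_smul, mul_smul, smul_eq_iff_eq_inv_smul] at this
  have cmm : ∀ e, e ≠ b → ∀ γ ∈ Kb inc G e, γ • b = b → ∀ a ∈ M, a • e = e → a * γ = γ * a :=
    fun e he γ h3 h4 a ha h5 => by
      have h6 := ti 1 e (by simpa using he) _ (mul_mem ha (hMn γ h4 _ (inv_mem ha))) (by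
        have := mul_mem (conj_K hG a h3) (h5.symm ▸ inv_mem h3)
        simpa [h5, mul_assoc] using this)
      calc a * γ = a * (γ * a⁻¹ * γ⁻¹) * (γ * a) := by group
        _ = _ := by rw [h6, one_mul]
  letI : MulAction (zpowers β) (Ob M c) :=
    have hz : ∀ a ∈ zpowers β, a • b = b ∧ a • c = c := fun a ha =>
      (zpowers_le (H := MulAction.stabilizer G b ⊓ MulAction.stabilizer G c)).2
        ⟨hβb, h.fixb hG hβK⟩ ha
    { smul := fun a z => ⟨(a : G) • (z : B), by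
        obtain ⟨t, ht, e⟩ := z.2
        exact ⟨_, hMn a (hz a a.2).1 t ht, by
          rw [mul_smul, mul_smul, inv_fix (hz a a.2).2, e]⟩⟩
      one_smul := fun z => Subtype.ext (one_smul G _)
      mul_smul := fun a a' z => Subtype.ext (mul_smul (a : G) _ _) }
  have hpg : IsPGroup p (zpowers β) := IsPGroup.of_card (n := 1) (by
    rw [Nat.card_zpowers, pow_one, ← hx, ← orderOf_coe]
    exact (SemiconjBy.orderOf_eq y (by simp [SemiconjBy, hβ])).symm)
  obtain ⟨⟨_, n, hn, rfl⟩, h3, h4⟩ := hpg.exists_fixed_point_of_prime_dvd_card_of_fixed_point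
    (Ob M c) (by rwa [Nat.card_coe_set_eq]) (a := ⟨c, 1, one_mem _, one_smul _ _⟩)
    fun a => Subtype.ext ((zpowers_le (H := MulAction.stabilizer G c)).2 (h.fixb hG hβK) a.2)
  have h5 : β • n • c = n • c := congrArg Subtype.val (h3 ⟨β, mem_zpowers β⟩)
  have h6 : n • c ≠ c := fun e => h4 (Subtype.ext e.symm)
  have hnc : n⁻¹ • c ≠ b := fun e => hcb (by rw [← hfb n hn, ← e, smul_inv_smul])
  set a := n⁻¹ * (β * n * β⁻¹) with ha
  have haM : a ∈ M := mul_mem (inv_mem hn) (hMn β hβb n hn)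
  have hac : a • c = c := by
    simp only [ha, mul_smul, inv_fix (h.fixb hG hβK), h5, inv_smul_smul]
  have hγ : n⁻¹ * β * n⁻¹⁻¹ ∈ Kb inc G (n⁻¹ • c) := conj_K hG _ hβK
  have ha1 : a ≠ 1 := fun e => hx1 (ti y (n⁻¹ • c) (by rw [hy1]; exact fun e => h6 (inv_smul_eq_iff.1 e).symm)
    x x.2 (by
      have : n⁻¹ * β * n⁻¹⁻¹ = β := by
        calc _ = a * β := by rw [ha]; group
          _ = β := by rw [e, one_mul]
      rwa [this] at hγ))
  have nrm : ∀ s ∈ M, s • c = c → ∀ t ∈ M, s • t • c = t • c := fun s hs' e t ht => by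
    by_cases h7 : s = 1
    · rw [h7, one_smul]
    · exact h.norm_fix hG (hM hs') (hM ht) (hs s hs' h7) e
  have hZ : ∀ s ∈ M, s • c = c → s * a = a * s := fun s hs' e => by
    have e1 := cmm c hcb β⁻¹ (inv_mem hβK) (inv_fix hβb) s hs' e
    have e2 := cmm _ hnc _ hγ (by
      simp only [mul_smul, inv_inv, hfb n hn, hβb, inv_fix (hfb n hn)]) s hs'
      (nrm s hs' e _ (inv_mem hn))
    calc s * a = s * (n⁻¹ * β * n⁻¹⁻¹) * β⁻¹ := by rw [ha]; group
      _ = n⁻¹ * β * n⁻¹⁻¹ * (s * β⁻¹) := by rw [e2, mul_assoc]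
      _ = _ := by rw [e1, ha]; group
  obtain ⟨r, hr, hrd⟩ := Nat.exists_prime_and_dvd (mt orderOf_eq_one_iff.1 ha1)
  haveI := Fact.mk hr
  let Q : Subgroup G :=
    { carrier := {x | x ∈ M ∧ x • c = c ∧ (∀ s ∈ M, s • c = c → s * x = x * s) ∧ x ^ r = 1}
      one_mem' := ⟨one_mem _, one_smul _ _, fun _ _ _ => by simp, one_pow _⟩
      mul_mem' := fun {x y} hx hy => ⟨mul_mem hx.1 hy.1, by rw [mul_smul, hy.2.1, hx.2.1],
        fun s h7 h8 => by rw [← mul_assoc, hx.2.2.1 s h7 h8, mul_assoc, hy.2.2.1 s h7 h8, mul_assoc],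
        by rw [Commute.mul_pow (hy.2.2.1 x hx.1 hx.2.1), hx.2.2.2, hy.2.2.2, one_mul]⟩
      inv_mem' := fun {x} hx => ⟨inv_mem hx.1, inv_fix hx.2.1, fun s h7 h8 =>
        (Commute.inv_right (hx.2.2.1 s h7 h8)).eq, by rw [inv_pow, hx.2.2.2, inv_one]⟩ }
  have hQ : Q ≤ H10.OpOf r M := H10.le_OpOf (fun x hx => hx.1) (fun t ht => by
    refine mem_normalizer_fintype fun x hx => ⟨mul_mem (mul_mem ht hx.1) (inv_mem ht), by
      rw [mul_smul, mul_smul, nrm x hx.1 hx.2.1 _ (inv_mem ht), smul_inv_smul], fun s h7 h8 => ?_,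
      by rw [conj_pow, hx.2.2.2, mul_one, mul_inv_cancel]⟩
    have := hx.2.2.1 _ (mul_mem (mul_mem (inv_mem ht) h7) ht) (by
      rw [mul_smul, mul_smul, nrm s h7 h8 t ht, inv_smul_smul])
    calc _ = t * (t⁻¹ * s * t * x) * t⁻¹ := by group
      _ = _ := by rw [this]; group) fun x => ⟨1, Subtype.ext (by simpa using x.2.2.2.2)⟩
  have hQ1 : a ^ (orderOf a / r) ∈ Q := ⟨pow_mem haM _,
    pow_mem (show a ∈ MulAction.stabilizer G c from hac) _,
    fun s h7 h8 => (Commute.pow_right (hZ s h7 h8) _).eq,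
    by rw [← pow_mul, Nat.div_mul_cancel hrd, pow_orderOf_eq_one]⟩
  have hO : ∀ g : G, g • b = b → ∀ x ∈ H10.OpOf r M, g * x * g⁻¹ ∈ H10.OpOf r M := fun g hg x hx =>
    (mem_normalizer_iff.1 (H10.normalizer_le_normalizer_OpOf
      (mem_normalizer_fintype (hMn g hg))) x).1 hx
  obtain ⟨z, hz, hz1, hz2⟩ := exists_cent (p := r) (P := H10.OpOf r M) (D := H10.OpOf r M)
    H10.OpOf_isPGroup (by
      have := orderOf_pow_orderOf_div (orderOf_pos a).ne' hrd
      have h7 := Subgroup.orderOf_dvd_natCard _ (hQ hQ1)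
      rwa [this] at h7)
    fun a ha b hb => mul_mem (mul_mem ha hb) (inv_mem ha)
  refine hT.onan b (H10.OpOf r M ⊓ centralizer (H10.OpOf r M))
    (fun n hn => hfb n (H10.OpOf_le hn.1)) (fun g hg n hn => ⟨hO g hg n hn.1, fun s h7 => ?_⟩)
    (fun a ha b hb => hb.2 a ha.1) ⟨z, ⟨hz, hz2⟩, hz1, other z (H10.OpOf_le hz) hz1⟩
  have := hn.2 _ (hO g⁻¹ (inv_fix hg) s h7)
  calc _ = g * (g⁻¹ * s * g⁻¹⁻¹ * n) * g⁻¹ := by group
    _ = _ := by rw [this]; group

end Des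

end Cfsg.Agent.H19.ON
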