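import Cfsg.Agent.H19.ONk

/-! Designs from 2-transitive groups with a subgroup of index the degree. -/

set_option autoImplicit false

namespace Cfsg.Agent.H19.ON

open Finset Subgroup
open scoped Classical

theorem card_smul {α β G : Type*} [Fintype α] [Group G] [MulAction G α] [MulAction G β]
    (p : α → β → Prop) (hG : ∀ (g : G) w b, p (g • w) (g • b) ↔ p w b) (g : G) (b : β) :
    (univ.filter fun w => p w (g • b)).card = (univ.filter fun w => p w b).card :=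
  (card_equiv (MulAction.toPerm g) fun w => by simp [hG]).symm

theorem Des.of {Ω B : Type*} [Fintype Ω] [Fintype B] {inc : Ω → B → Prop}
    {G : Type*} [Group G] [MulAction G Ω] [MulAction G B]
    (hG : ∀ (g : G) w b, inc (g • w) (g • b) ↔ inc w b) (h2 : Two G Ω)
    (hB : ∀ b c : B, ∃ g : G, g • b = c) (hc : Fintype.card Ω = Fintype.card B)
    {w w' : Ω} {b : B} (hw : inc w b) (hw' : ¬ inc w' b) :
    ∃ l, Des inc (univ.filter fun w => inc w b).card l := by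
  have h1 : ∀ c, (univ.filter fun w => inc w c).card = (univ.filter fun w => inc w b).card :=
    fun c => by obtain ⟨g, rfl⟩ := hB b c; exact card_smul inc hG g b
  have h3 : ∀ u, (univ.filter fun c => inc u c).card = (univ.filter fun c => inc w c).card :=
    fun u => by obtain ⟨g, rfl⟩ := h2.trans w u; exact card_smul (fun c u => inc u c) (fun g c u => hG g u c) g w
  have h4 : (univ.filter fun c => inc w c).card = (univ.filter fun w => inc w b).card := by
    have := sum_card_bipartiteAbove_eq_sum_card_bipartiteBelow (s := univ) (t := univ) inc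
    simp only [bipartiteAbove, bipartiteBelow, h1, h3, sum_const, card_univ, hc, smul_eq_mul] at this
    exact Nat.eq_of_mul_eq_mul_left (Fintype.card_pos_iff.2 ⟨b⟩) this
  have hne : w ≠ w' := fun e => hw' (e ▸ hw)
  refine ⟨(univ.filter fun c => inc w c ∧ inc w' c).card, hc, h1, fun u => (h3 u).trans h4,
    fun u u' hu => ?_, ?_⟩
  · obtain ⟨g, rfl, rfl⟩ := h2.two hne hu
    exact (card_equiv (MulAction.toPerm g) fun c => by simp [hG]).symm
  · rw [← h4]
    exact card_lt_card ⟨fun c hc => by simpa using (mem_filter.1 hc).2.1,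
      fun h => hw' (mem_filter.1 (h (mem_filter.2 ⟨mem_univ b, hw⟩))).2.2⟩

theorem ito {G Ω : Type*} [Group G] [Finite G] [MulAction G Ω] [FaithfulSMul G Ω] [Finite Ω]
    (h2 : MulAction.IsMultiplyPretransitive G Ω 2) (H : Subgroup G) (hidx : H.index = Nat.card Ω)
    (hnt : ¬ MulAction.IsPretransitive H Ω) (hfix : ∀ a : Ω, ∃ h : H, h • a ≠ a)
    (hunf : ∃ a : Ω, ∃ h : H, h ≠ 1 ∧ ∀ b ∈ MulAction.orbit H a, h • b = b) :
    ∃ (m : ℕ) (F : Type) (_ : Field F) (_ : Fintype F), 2 ≤ m ∧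
      Nat.card Ω = (Fintype.card F ^ (m + 1) - 1) / (Fintype.card F - 1) ∧
      ∃ N : Subgroup G, N.Normal ∧
        Nonempty (N ≃* Matrix.ProjectiveSpecialLinearGroup (Fin (m + 1)) F) ∧
        Subgroup.centralizer (N : Set G) = ⊥ := by
  obtain ⟨a, t, ht1, ht⟩ := hunf
  haveI := Fintype.ofFinite Ω
  haveI := Fintype.ofFinite (G ⧸ H)
  let inc : Ω → G ⧸ H → Prop := fun w b => ∃ g : G, (g : G ⧸ H) = b ∧ g • a = w
  have hG : ∀ (g : G) w b, inc (g • w) (g • b) ↔ inc w b := fun g w b =>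
    ⟨fun ⟨x, h1, h3⟩ => ⟨g⁻¹ * x, by
      rw [← smul_eq_mul, ← MulAction.Quotient.smul_coe, h1, inv_smul_smul],
      by rw [mul_smul, h3, inv_smul_smul]⟩,
    fun ⟨x, h1, h3⟩ => ⟨g * x, by rw [← h1]; rfl, by rw [mul_smul, h3]⟩⟩
  have ho : ∀ w, inc w ((1 : G) : G ⧸ H) ↔ w ∈ MulAction.orbit H a := fun w =>
    ⟨fun ⟨x, h1, h3⟩ => ⟨⟨x, by simpa using QuotientGroup.eq.1 h1.symm⟩, h3⟩,
      fun ⟨x, h3⟩ => ⟨x, QuotientGroup.eq.2 (by simp), h3⟩⟩
  obtain ⟨w, hw⟩ : ∃ w, ¬ inc w ((1 : G) : G ⧸ H) := by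
    by_contra h1
    push Not at h1
    refine hnt ⟨fun x y => ?_⟩
    obtain ⟨g, rfl⟩ := (ho x).1 (h1 x)
    obtain ⟨k, rfl⟩ := (ho y).1 (h1 y)
    exact ⟨k * g⁻¹, by simp [mul_smul]⟩
  have ha := (ho a).2 (MulAction.mem_orbit_self a)
  obtain ⟨l, hD⟩ := Des.of hG (Two.of h2) (MulAction.exists_smul_eq G)
    (by rw [← Nat.card_eq_fintype_card, ← hidx, ← Nat.card_eq_fintype_card]; rfl) ha hw
  obtain ⟨L, F, _, _, n, h3, hL, hC, he, hc⟩ := hD.ito hG (Two.of h2) (by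
      obtain ⟨x, hx⟩ := hfix a
      exact one_lt_card.2 ⟨_, by simpa using (ho _).2 ⟨x, rfl⟩, a, by simpa using ha, hx⟩)
    (b := ((1 : G) : G ⧸ H)) (fun u _ => by
      obtain ⟨x, hx⟩ := hfix u
      exact ⟨x, QuotientGroup.eq.2 (by simp), hx⟩) ⟨w, hw⟩
    fun e => ht1 (Subtype.ext (mem_bot.1 (e ▸ fun u hu => ht u ((ho u).1 hu) : (t : G) ∈ ⊥)))
  obtain ⟨m, rfl⟩ : ∃ m, n = m + 1 := ⟨n - 1, by omega⟩
  refine ⟨m, F, inferInstance, inferInstance, by omega, ?_, L, hL, he, hC⟩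
  rw [← hc, Nat.mul_div_cancel _ (Nat.sub_pos_of_lt Fintype.one_lt_card), ← hidx]
  rfl

end Cfsg.Agent.H19.ON
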