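import Cfsg.Agent.H19.ONk

/-! Finite projective planes: perspectivities, elation groups, Baer's theorem. -/

set_option autoImplicit false

namespace Cfsg.Agent.H19.ON

open Finset Subgroup
open scoped Classical

theorem nc {α : Type*} [Fintype α] (p : α → Prop) [DecidablePred p] :
    {x | p x}.ncard = (univ.filter p).card := by
  rw [← Set.ncard_coe_finset]; congr 1; ext; simp

section orb
variable {G X : Type*} [Group G] [MulAction G X]

theorem Ob_self (K : Subgroup G) (y : X) : y ∈ Ob K y := ⟨1, one_mem _, one_smul _ _⟩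

theorem dvd_ncard [Finite X] (K : Subgroup G) (d : ℕ) : ∀ (m : ℕ) (S : Set X), S.ncard = m →
    (∀ k ∈ K, ∀ y ∈ S, k • y ∈ S) → (∀ y ∈ S, d ∣ (Ob K y).ncard) → d ∣ m := by
  intro m
  induction m using Nat.strong_induction_on with
  | _ m ih =>
    intro S hS h1 h2
    rcases S.eq_empty_or_nonempty with rfl | ⟨y, hy⟩
    · simp [← hS]
    have h3 : Ob K y ⊆ S := by rintro _ ⟨k, hk, rfl⟩; exact h1 k hk y hy
    have h4 := Set.ncard_diff_add_ncard_of_subset h3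
    have h5 := (Set.ncard_pos (Set.toFinite _)).2 ⟨y, Ob_self K y⟩
    rw [← hS, ← h4]
    refine dvd_add (ih _ (by omega) _ rfl (fun k hk z hz => ⟨h1 k hk z hz.1, fun ⟨t, ht, e⟩ =>
      hz.2 ⟨k⁻¹ * t, mul_mem (inv_mem hk) ht, by rw [mul_smul, e, inv_smul_smul]⟩⟩)
      fun z hz => h2 z hz.1) (h2 y hy)

theorem dvd_semi [Finite X] (K : Subgroup G) (S : Set X) (h1 : ∀ k ∈ K, ∀ y ∈ S, k • y ∈ S)
    (h2 : ∀ k ∈ K, ∀ y ∈ S, k • y = y → k = 1) : Nat.card K ∣ S.ncard :=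
  dvd_ncard K _ _ S rfl h1 fun y hy => by
    rw [card_Ob K ⊥ y fun g => ⟨fun e => by simp [mem_bot.1 e], fun e => h2 g e.1 y hy e.2⟩]
    simp

/-- a subset of one orbit is at most half of the set, or the orbit is everything -/
theorem half [Finite X] [Finite G] (K D : Subgroup G) (S C : Set X)
    (h1 : ∀ k ∈ K, ∀ y ∈ S, k • y ∈ S) (h2 : ∀ y ∈ S, ∀ g, g ∈ D ↔ g ∈ K ∧ g • y = y)
    (hC : C ⊆ S) (h3 : ∀ y ∈ C, ∀ z ∈ C, z ∈ Ob K y) :
    2 * C.ncard ≤ S.ncard ∨ ∃ y ∈ S, (Ob K y).ncard = S.ncard := by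
  rcases C.eq_empty_or_nonempty with rfl | ⟨y, hy⟩
  · simp
  obtain ⟨c, hc⟩ := dvd_ncard K (Ob K y).ncard _ S rfl h1 fun z hz => by
    rw [Nat.eq_of_mul_eq_mul_right Nat.card_pos
      ((card_Ob K D y (h2 y (hC hy))).symm.trans (card_Ob K D z (h2 z hz)))]
  have h4 := Set.ncard_le_ncard (h3 y hy) (Set.toFinite _)
  have h5 := (Set.ncard_pos (Set.toFinite _)).2 ⟨y, hC hy⟩
  by_cases h6 : c = 1
  · exact Or.inr ⟨y, hC hy, by rw [hc, h6, mul_one]⟩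
  · have : 2 ≤ c := by
      rcases c with _ | _ | c
      · omega
      · omega
      · omega
    exact Or.inl (by nlinarith)

/-- Sylow subgroups as subgroups of the ambient group -/
theorem exists_syl [Finite G] (p : ℕ) [Fact p.Prime] (K : Subgroup G) :
    ∃ M ≤ K, IsPGroup p M ∧ ∃ u, Nat.card K = Nat.card M * u ∧ ¬ p ∣ u := by
  obtain ⟨S⟩ : Nonempty (Sylow p K) := inferInstance
  refine ⟨S.1.map K.subtype, map_subtype_le _, S.2.map _, S.1.index, ?_, S.not_dvd_index⟩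
  rw [card_map_of_injective (subtype_injective _), card_mul_index]

theorem dvd_Ob [Finite G] {p : ℕ} (hp : p.Prime) {K M : Subgroup G} (hM : M ≤ K) {u : ℕ}
    (hu : Nat.card K = Nat.card M * u) (h1 : ¬ p ∣ u) (y : X) {j : ℕ}
    (hj : p ^ j ∣ (Ob K y).ncard) : p ^ j ∣ (Ob M y).ncard := by
  obtain ⟨w, hw⟩ := card_dvd_of_le (inf_le_inf_right (MulAction.stabilizer G y) hM)
  rw [card_Ob K (K ⊓ MulAction.stabilizer G y) y fun _ => Iff.rfl,
    card_Ob M (M ⊓ MulAction.stabilizer G y) y fun _ => Iff.rfl, hw] at hu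
  have h2 : (Ob K y).ncard * w = (Ob M y).ncard * u := Nat.eq_of_mul_eq_mul_right Nat.card_pos
    (by linarith : _ * Nat.card (M ⊓ MulAction.stabilizer G y : Subgroup G) = _)
  exact (Nat.Coprime.pow_left j ((Nat.Prime.coprime_iff_not_dvd hp).2 h1)).dvd_of_dvd_mul_right
    (h2 ▸ hj.mul_right w)

end orb

variable {Ω B : Type*} [Fintype Ω] [Fintype B] {inc : Ω → B → Prop} {n : ℕ}

theorem Des.equiv {Ω' B' : Type*} [Fintype Ω'] [Fintype B'] {inc' : Ω' → B' → Prop} {k l : ℕ}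
    (h : Des inc k l) (e : Ω ≃ Ω') (f : B ≃ B') (hi : ∀ x b, inc' (e x) (f b) ↔ inc x b) :
    Des inc' k l := by
  refine ⟨by rw [← Fintype.card_congr e, ← Fintype.card_congr f, h.card], fun b => ?_, fun w => ?_,
    fun w w' hw => ?_, h.lt⟩
  · obtain ⟨b, rfl⟩ := f.surjective b
    exact (card_equiv e fun x => by simp [hi]).symm.trans (h.blk b)
  · obtain ⟨w, rfl⟩ := e.surjective w
    exact (card_equiv f fun x => by simp [hi]).symm.trans (h.pt w)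
  · obtain ⟨w, rfl⟩ := e.surjective w
    obtain ⟨w', rfl⟩ := e.surjective w'
    exact (card_equiv f fun x => by simp [hi]).symm.trans (h.pp w w' fun e => hw (e ▸ rfl))

variable (inc) in
/-- a finite projective plane of order `n` with a faithful collineation group -/
structure Pl (G : Type*) [Group G] [MulAction G Ω] [MulAction G B] (n : ℕ) : Prop where
  des : Des inc (n + 1) 1
  two : 2 ≤ n
  hG : ∀ (g : G) w b, inc (g • w) (g • b) ↔ inc w b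
  fp : ∀ g : G, (∀ x : Ω, g • x = x) → g = 1
  ne : Nonempty Ω

theorem Des.exists_aut (h : Des inc (n + 1) 1) (h2 : 2 ≤ n) (h0 : Nonempty Ω) :
    ∃ (G : Subgroup (Equiv.Perm Ω × Equiv.Perm B)) (_ : MulAction G Ω) (_ : MulAction G B),
      Pl inc G n ∧ ∀ (σ : Equiv.Perm Ω) (τ : Equiv.Perm B), (∀ w b, inc (σ w) (τ b) ↔ inc w b) →
        ∃ g : G, (∀ w, g • w = σ w) ∧ ∀ b, g • b = τ b := by
  let G : Subgroup (Equiv.Perm Ω × Equiv.Perm B) :=
    { carrier := {g | ∀ w b, inc (g.1 w) (g.2 b) ↔ inc w b}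
      one_mem' := fun _ _ => Iff.rfl
      mul_mem' := fun ha hb w b => (ha _ _).trans (hb w b)
      inv_mem' := fun {a} ha w b => by rw [← ha]; simp }
  letI : MulAction G Ω := MulAction.compHom Ω ((MonoidHom.fst _ _).comp G.subtype)
  letI : MulAction G B := MulAction.compHom B ((MonoidHom.snd _ _).comp G.subtype)
  refine ⟨G, inferInstance, inferInstance, ⟨h, h2, fun g => g.2, fun g hg => ?_, h0⟩,
    fun σ τ hs => ⟨⟨(σ, τ), hs⟩, fun _ => rfl, fun _ => rfl⟩⟩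
  exact Subtype.ext (Prod.ext (Equiv.ext hg) (Equiv.ext fun b => (h.dual.ext_pt fun w hw => by
    have := (g.2 w b).2 hw
    rwa [show g.1.1 w = w from hg w] at this).symm))

namespace Pl
variable {G : Type*} [Group G] [MulAction G Ω] [MulAction G B] (h : Pl inc G n)
include h

theorem dual : Pl (fun b w => inc w b) G n :=
  ⟨h.des.dual, h.two, fun g b w => h.hG g w b, fun g hg => h.fp g fun w =>
    (h.des.ext_pt fun b hb => by rwa [← hg b, h.hG]).symm,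
    Fintype.card_pos_iff.1 (h.des.card ▸ Fintype.card_pos_iff.2 h.ne)⟩

theorem uq {x y : Ω} {a b : B} (h1 : inc x a) (h2 : inc y a) (h3 : inc x b) (h4 : inc y b)
    (hxy : x ≠ y) : a = b :=
  card_le_one.1 (h.des.pp x y hxy).le a (by simp [*]) b (by simp [*])

theorem uq' {x y : Ω} {a b : B} (h1 : inc x a) (h2 : inc y a) (h3 : inc x b) (h4 : inc y b)
    (hab : a ≠ b) : x = y := by_contra fun e => hab (h.uq h1 h2 h3 h4 e)

theorem three (a : B) (x y : Ω) : ∃ z, inc z a ∧ z ≠ x ∧ z ≠ y := by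
  obtain ⟨z, h1, h2⟩ := exists_mem_notMem_of_card_lt_card (s := {x, y})
    (t := univ.filter fun w => inc w a) (by
      have := h.two; have := card_le_two (a := x) (b := y); rw [h.des.blk]; omega)
  exact ⟨z, by simpa using h1, by simpa using h2⟩

theorem three' (x : Ω) (a b : B) : ∃ c, inc x c ∧ c ≠ a ∧ c ≠ b := h.dual.three x a b

theorem jn (x y : Ω) : ∃ a, inc x a ∧ inc y a := by
  by_cases e : x = y
  · obtain ⟨a, ha⟩ := card_pos.1 ((h.des.pt x).symm ▸ n.add_one_pos)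
    exact ⟨a, (mem_filter.1 ha).2, e ▸ (mem_filter.1 ha).2⟩
  · obtain ⟨a, ha⟩ := card_pos.1 ((h.des.pp x y e).symm ▸ Nat.one_pos)
    exact ⟨a, (mem_filter.1 ha).2⟩

theorem mt (a b : B) : ∃ x, inc x a ∧ inc x b := h.dual.jn a b

theorem off (a : B) : ∃ x, ¬ inc x a := by
  obtain ⟨z, hz, -⟩ := h.mt a a
  obtain ⟨b, h1, h2, -⟩ := h.three' z a a
  obtain ⟨x, h3, h4, -⟩ := h.three b z z
  exact ⟨x, fun h5 => h2 (h.uq h3 h1 h5 hz h4)⟩

theorem card (w : Ω) : Fintype.card Ω = n * n + n + 1 := by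
  have := h.des.eqn w; nlinarith

theorem card_off (a : B) : {x | ¬ inc x a}.ncard = n * n := by
  obtain ⟨x, -⟩ := h.off a
  have := card_filter_add_card_filter_not (s := univ) fun x => inc x a
  rw [h.des.blk, card_univ, h.card x, ← nc fun x => ¬ inc x a] at this
  omega

theorem card_on {a : B} {y : Ω} (hy : inc y a) : {x | inc x a ∧ x ≠ y}.ncard = n := by
  have := Set.ncard_diff_singleton_add_one (s := {x | inc x a}) hy
  rw [nc, h.des.blk] at this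
  exact Nat.add_right_cancel this

theorem fixl {g : G} {x y : Ω} {b : B} (hx : g • x = x) (hy : g • y = y) (hxy : x ≠ y)
    (h1 : inc x b) (h2 : inc y b) : g • b = b :=
  h.uq (by rwa [← hx, h.hG]) (by rwa [← hy, h.hG]) h1 h2 hxy

theorem fixp {g : G} {a b : B} {x : Ω} (ha : g • a = a) (hb : g • b = b) (hab : a ≠ b)
    (h1 : inc x a) (h2 : inc x b) : g • x = x := h.dual.fixl ha hb hab h1 h2

theorem on {g : G} {a : B} {x : Ω} (ha : g • a = a) : inc (g • x) a ↔ inc x a := by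
  rw [← h.hG g x, ha]

end Pl

variable (inc) in
/-- linewise stabiliser of a point -/
abbrev Ce (G : Type*) [Group G] [MulAction G B] (c : Ω) : Subgroup G :=
  Kb (fun b w => inc w b) G c

namespace Pl
variable {G : Type*} [Group G] [MulAction G Ω] [MulAction G B] (h : Pl inc G n)
include h

theorem ax_fix {g : G} {a : B} (hg : g ∈ Kb inc G a) : g • a = a := h.des.fixb h.hG hg

theorem ce_fix {g : G} {c : Ω} (hg : g ∈ Ce inc G c) : g • c = c := h.dual.ax_fix hg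

theorem cen_of_fix {g : G} {a : B} (hg : g ∈ Kb inc G a) {x : Ω} (hx : ¬ inc x a)
    (e : g • x = x) : g ∈ Ce inc G x := fun b hb => by
  obtain ⟨z, h1, h2⟩ := h.mt a b
  exact h.fixl e (hg z h1) (fun e => hx (e ▸ h1)) hb h2

theorem two_ax {g : G} {a b : B} (ha : g ∈ Kb inc G a) (hb : g ∈ Kb inc G b) (hab : a ≠ b) :
    g = 1 := h.fp g fun z => by
  by_contra hz
  obtain ⟨o, h1, h2⟩ := h.mt a b
  obtain ⟨x, h3, h4, -⟩ := h.three b o o
  obtain ⟨y, h5, h6, h7⟩ := h.three b o x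
  obtain ⟨c, h8, h9⟩ := h.jn z x
  obtain ⟨d, k1, k2⟩ := h.jn z y
  refine hz (h.fixp (h.cen_of_fix ha (fun e => h4 (h.uq' e h1 h3 h2 hab)) (hb x h3) c h9)
    (h.cen_of_fix ha (fun e => h6 (h.uq' e h1 h5 h2 hab)) (hb y h5) d k2) (fun e => hz ?_) h8 k1)
  exact hb z (h.uq (e ▸ k2 : inc y c) h9 h5 h3 h7 ▸ h8)

theorem two_ce {g : G} {a b : Ω} (ha : g ∈ Ce inc G a) (hb : g ∈ Ce inc G b) (hab : a ≠ b) :
    g = 1 := h.dual.two_ax ha hb hab

theorem semi {g : G} {a : B} {c x : Ω} (ha : g ∈ Kb inc G a) (hc : g ∈ Ce inc G c)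
    (hx : ¬ inc x a) (hxc : x ≠ c) (e : g • x = x) : g = 1 :=
  h.two_ce (h.cen_of_fix ha hx e) hc hxc

theorem exists_cen {g : G} {a : B} (hg : g ∈ Kb inc G a) : ∃ c, g ∈ Ce inc G c := by
  by_cases h1 : ∃ x, ¬ inc x a ∧ g • x = x
  · obtain ⟨x, h2, h3⟩ := h1
    exact ⟨x, h.cen_of_fix hg h2 h3⟩
  push Not at h1
  have key : ∀ x, ¬ inc x a → ∃ b, inc x b ∧ g • b = b := fun x hx => by
    obtain ⟨b, h2, h3⟩ := h.jn x (g • x)
    obtain ⟨z, h4, h5⟩ := h.mt a b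
    exact ⟨b, h2, h.uq ((h.hG g x b).2 h2) (by rwa [← hg z h4, h.hG]) h3 h5
      fun e => hx ((h.on (h.ax_fix hg)).1 (e ▸ h4))⟩
  obtain ⟨x₀, h2⟩ := h.off a
  obtain ⟨b₀, h3, h4⟩ := key x₀ h2
  obtain ⟨c, h5, h6⟩ := h.mt a b₀
  refine ⟨c, fun d hd => ?_⟩
  by_cases e : d = a
  · rw [e, h.ax_fix hg]
  obtain ⟨x, h7, h8, -⟩ := h.three d c c
  obtain ⟨b, h9, k1⟩ := key x fun k => e (h.uq h7 hd k h5 h8)
  have k2 : inc c b := by
    by_contra k2
    obtain ⟨y, k3, k4⟩ := h.mt b b₀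
    have k5 : inc y a := by_contra fun k => h1 y k (h.fixp k1 h4 (fun e => k2 (e ▸ h6)) k3 k4)
    exact k2 (h.uq' k5 h5 k4 h6 (fun e => h2 (e ▸ h3)) ▸ k3)
  rwa [h.uq h7 hd h9 k2 h8]

/-- the elations with a given axis -/
def T (a : B) : Subgroup G where
  carrier := {g | ∃ c, inc c a ∧ g ∈ Kb inc G a ∧ g ∈ Ce inc G c}
  one_mem' := (h.mt a a).imp fun _ hc => ⟨hc.1, one_mem _, one_mem _⟩
  inv_mem' := fun ⟨c, h1, h2, h3⟩ => ⟨c, h1, inv_mem h2, inv_mem h3⟩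
  mul_mem' := fun {σ τ} ⟨c, h1, h2, h3⟩ ⟨c', h4, h5, h6⟩ => by
    obtain ⟨d, hd⟩ := h.exists_cen (mul_mem h2 h5)
    by_cases h7 : inc d a
    · exact ⟨d, h7, mul_mem h2 h5, hd⟩
    by_cases h8 : τ • d = d
    · rw [h.semi h5 h6 h7 (fun e => h7 (e ▸ h4)) h8, mul_one]; exact ⟨c, h1, h2, h3⟩
    obtain ⟨b, k1, k2⟩ := h.jn d c
    obtain ⟨b', k3, k4⟩ := h.jn d c'
    have k5 : b = b' := h.uq k1 (by rw [← h.on (h3 b k2), ← mul_smul, h.ce_fix hd]; exact k1) k3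
      ((h.on (h6 b' k4)).2 k3) (Ne.symm h8)
    obtain rfl : c = c' := h.uq' h1 h4 k2 (k5 ▸ k4) fun e => h7 (e ▸ k1)
    exact ⟨c, h1, mul_mem h2 h5, mul_mem h3 h6⟩

theorem conj_K (g : G) {b : B} {t : G} (ht : t ∈ Kb inc G b) : g * t * g⁻¹ ∈ Kb inc G (g • b) :=
  Des.conj_K h.hG g ht

theorem conj_C (g : G) {c : Ω} {t : G} (ht : t ∈ Ce inc G c) : g * t * g⁻¹ ∈ Ce inc G (g • c) :=
  h.dual.conj_K g ht

theorem conj_T (g : G) {a : B} {t : G} (ht : t ∈ h.T a) : g * t * g⁻¹ ∈ h.T (g • a) :=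
  let ⟨c, h1, h2, h3⟩ := ht
  ⟨g • c, (h.hG g c a).2 h1, h.conj_K g h2, h.conj_C g h3⟩

theorem T_dvd {a : B} {t : G} (ht : t ∈ h.T a) : orderOf t ∣ n * n := by
  rw [← Nat.card_zpowers, ← h.card_off a]
  refine dvd_semi _ _ (fun k hk y hy => ?_) fun k hk y hy e => ?_ <;>
    obtain ⟨c, h1, h2, h3⟩ := zpowers_le.2 ht hk
  · exact fun e => hy ((h.on (h.ax_fix h2)).1 e)
  · exact h.semi h2 h3 hy (fun e => hy (e ▸ h1)) e

theorem mem_T {a : B} {t : G} (ht : t ∈ Kb inc G a) {p : ℕ} (hp : p.Prime) (hn : p ∣ n)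
    (h1 : t ^ p = 1) : t ∈ h.T a := by
  obtain ⟨c, hc⟩ := h.exists_cen ht
  by_cases h2 : t = 1
  · exact h2 ▸ one_mem _
  refine ⟨c, by_contra fun h3 => ?_, ht, hc⟩
  haveI := Fact.mk hp
  have h4 := dvd_semi (zpowers t) ({x | ¬ inc x a} \ {c}) (fun k hk y hy => ⟨fun e => hy.1
    ((h.on (h.ax_fix (zpowers_le.2 ht hk))).1 e), fun e => hy.2 (by
      rwa [Set.mem_singleton_iff, ← h.ce_fix (zpowers_le.2 hc hk), smul_left_cancel_iff] at e)⟩)
    fun k hk y hy e => h.semi (zpowers_le.2 ht hk) (zpowers_le.2 hc hk) hy.1 hy.2 e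
  have h5 := Set.ncard_diff_singleton_add_one (s := {x | ¬ inc x a}) h3
  rw [Nat.card_zpowers, orderOf_eq_prime h1 h2] at h4
  exact hp.one_lt.ne' (Nat.dvd_one.1 ((Nat.dvd_add_right h4).1
    (h5.symm ▸ h.card_off a ▸ hn.mul_right n)))

theorem T_ab [Finite G] {a : B}
    (hc : ∀ c, ∃ c' ≠ c, inc c' a ∧ ∃ σ ≠ 1, σ ∈ Kb inc G a ∧ σ ∈ Ce inc G c') :
    (∀ x ∈ h.T a, ∀ y ∈ h.T a, x * y = y * x) ∧ ∃ p, p.Prime ∧ IsPGroup p (h.T a) := by
  have k1 : ∀ {c c' x y}, inc c a → inc c' a → c ≠ c' → x ∈ Kb inc G a → x ∈ Ce inc G c →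
      y ∈ Kb inc G a → y ∈ Ce inc G c' → x * y = y * x := fun {c c' x y} h1 h2 h3 h4 h5 h6 h7 => by
    rw [← commutatorElement_eq_one_iff_mul_comm, commutatorElement_def]
    refine h.two_ce ?_ (mul_mem (h4 c' h2 ▸ h.conj_C x h7) (inv_mem h7)) h3
    have := mul_mem h5 (h6 c h1 ▸ h.conj_C y (inv_mem h5))
    simpa [mul_assoc] using this
  have k2 : ∀ x ∈ h.T a, ∀ y ∈ h.T a, x * y = y * x := by
    rintro x ⟨c, h1, h2, h3⟩ y ⟨c', h4, h5, h6⟩
    by_cases e : c = c'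
    swap
    · exact k1 h1 h4 e h2 h3 h5 h6
    subst e
    obtain ⟨d, h7, h8, σ, h9, l1, l2⟩ := hc c
    obtain ⟨e, l3, l4, l5⟩ := (h.T a).mul_mem ⟨c, h1, h5, h6⟩ ⟨d, h8, l1, l2⟩
    have l6 := k1 h1 l3 (fun e => h9 (h.two_ce l2 (by
      rw [← inv_mul_cancel_left y σ]; exact mul_mem (inv_mem h6) (e ▸ l5)) h7)) h2 h3 l4 l5
    rw [mul_assoc, ← k1 h1 h8 h7.symm h2 h3 l1 l2, ← mul_assoc, ← mul_assoc] at l6
    exact mul_right_cancel l6
  have k3 : ∀ {c c' x y} {p : ℕ}, inc c a → inc c' a → c ≠ c' → x ∈ Kb inc G a → x ∈ Ce inc G c →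
      y ∈ Kb inc G a → y ∈ Ce inc G c' → x ≠ 1 → x ^ p = 1 → y ^ p = 1 :=
    fun {c c' x y p} h1 h2 h3 h4 h5 h6 h7 h8 h9 => by
      obtain ⟨e, l3, l4, l5⟩ := (h.T a).mul_mem ⟨c, h1, h4, h5⟩ ⟨c', h2, h6, h7⟩
      have := pow_mem l5 p
      rw [Commute.mul_pow (k1 h1 h2 h3 h4 h5 h6 h7), h9, one_mul] at this
      exact h.two_ce this (pow_mem h7 p) fun e => h8 (h.two_ce h5 (by
        rw [← mul_inv_cancel_right x y]; exact mul_mem (e ▸ l5) (inv_mem h7)) h3)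
  obtain ⟨c₀, -⟩ := h.off a
  obtain ⟨c, -, h1, σ, h2, h3, h4⟩ := hc c₀
  obtain ⟨d, h5, h6, τ, h7, h8, h9⟩ := hc c
  obtain ⟨p, hp, hd⟩ := Nat.exists_prime_and_dvd (_root_.mt orderOf_eq_one_iff.1 h2)
  have l1 := orderOf_pow_orderOf_div (orderOf_pos σ).ne' hd
  have l2 : ∀ {c' y}, inc c' a → c ≠ c' → y ∈ Kb inc G a → y ∈ Ce inc G c' → y ^ p = 1 :=
    fun k4 k5 k6 k7 => k3 h1 k4 k5 (pow_mem h3 _) (pow_mem h4 _) k6 k7
      (fun e => hp.one_lt.ne' (by rw [← l1, e, orderOf_one])) (l1 ▸ pow_orderOf_eq_one _)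
  refine ⟨k2, p, hp, fun ⟨y, e, l3, l4, l5⟩ => ⟨1, Subtype.ext ?_⟩⟩
  rw [pow_one]
  by_cases l6 : c = e
  · exact k3 h6 l3 (l6 ▸ h5) h8 h9 l4 l5 h7 (l2 h6 h5.symm h8 h9)
  · exact l2 l3 l6 l4 l5

end Pl

end Cfsg.Agent.H19.ON
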