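import Cfsg.Agent.H19.ONm

/-! Baer's theorem, André's theorem, and Wagner's prime power argument. -/

set_option autoImplicit false

namespace Cfsg.Agent.H19.ON

open Finset Subgroup
open scoped Classical

theorem card_sub {α : Type*} [Fintype α] (p q : α → Prop) {_ : Fintype {x // p x}}
    {_ : DecidablePred fun x : {x // p x} => q x} {_ : DecidablePred fun x => p x ∧ q x} :
    (univ.filter fun x : {x // p x} => q x).card = (univ.filter fun x => p x ∧ q x).card :=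
  card_bij (fun a _ => a.1) (fun a ha => by simpa [a.2] using ha) (fun _ _ _ _ => Subtype.ext)
    fun b hb => ⟨⟨b, (mem_filter.1 hb).2.1⟩, by simpa using (mem_filter.1 hb).2.2, rfl⟩

theorem Ob_nt {G X : Type*} [Group G] [MulAction G X] {K : Subgroup G} {y : X}
    (h : (Ob K y).ncard ≠ 1) : ∃ k ∈ K, k • y ≠ y := by
  by_contra h1
  push Not at h1
  exact h (Set.ncard_eq_one.2 ⟨y, Set.eq_singleton_iff_unique_mem.2 ⟨Ob_self K y, by
    rintro _ ⟨k, hk, rfl⟩; exact h1 k hk⟩⟩)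

/-- prime powers -/
def PP (n : ℕ) : Prop := ∃ p j : ℕ, p.Prime ∧ n = p ^ j

theorem PP.of {G X : Type*} [Group G] [Finite G] [MulAction G X] {K : Subgroup G} {p : ℕ}
    (hp : p.Prime) (hK : IsPGroup p K) (y : X) : PP (Ob K y).ncard := by
  haveI := Fact.mk hp
  obtain ⟨k, hk⟩ := IsPGroup.iff_card.1 hK
  obtain ⟨j, -, hj⟩ := (Nat.dvd_prime_pow hp).1
    ⟨_, hk ▸ card_Ob K (K ⊓ MulAction.stabilizer G y) y fun _ => Iff.rfl⟩
  exact ⟨p, j, hp, hj⟩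

variable {Ω B : Type*} [Fintype Ω] [Fintype B] {inc : Ω → B → Prop} {n : ℕ}
  {G : Type*} [Group G] [MulAction G Ω] [MulAction G B]

variable (inc G) in
/-- there is an involutory homology with centre `c` and axis `a` -/
def Ho (c : Ω) (a : B) : Prop :=
  ¬ inc c a ∧ ∃ t : G, t ≠ 1 ∧ t * t = 1 ∧ t ∈ Kb inc G a ∧ t ∈ Ce inc G c

omit [Fintype Ω] [Fintype B] in
theorem Ho.dual {c : Ω} {a : B} (h : Ho inc G c a) : Ho (fun b w => inc w b) G a c :=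
  ⟨h.1, h.2.imp fun _ h => ⟨h.1, h.2.1, h.2.2.2, h.2.2.1⟩⟩

namespace Pl
variable (h : Pl inc G n)
include h

theorem baer_cnt {t : G} (ht : t * t = 1) {b : B} (hb : t • b = b) (h1 : t ∉ Kb inc G b) :
    (univ.filter fun x => t • x = x ∧ inc x b).card + n =
      (univ.filter fun x : Ω => t • x = x).card := by
  obtain ⟨y, h2, h3⟩ : ∃ y, inc y b ∧ t • y ≠ y := by
    by_contra h2; push Not at h2; exact h1 h2
  choose j h4 h5 using fun x => h.jn x y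
  have h6 : {x | t • x = x ∧ ¬ inc x b}.ncard = {c | inc y c ∧ c ≠ b}.ncard := by
    refine Set.ncard_congr (fun x _ => j x) (fun x hx => ⟨h5 x, fun e => hx.2 (e ▸ h4 x)⟩)
      (fun x x' hx hx' e => by_contra fun h7 => h3 (h.fixp (h.fixl hx.1 hx'.1 h7 (h4 x) (e ▸ h4 x'))
        hb (fun e => hx.2 (e ▸ h4 x)) (h5 x) h2)) fun c hc => ?_
    obtain ⟨x, h7, h8⟩ := h.mt c (t • c)
    have h9 : t • c ≠ c := fun e => h3 (h.fixp e hb hc.2 hc.1 h2)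
    have k1 : t • x = x := h.uq' (by rw [← h.hG t, ← mul_smul, ht, one_smul]; exact h8) h7
      ((h.hG t x c).2 h7) h8 h9.symm
    have k2 : x ≠ y := fun e => h3 (e ▸ k1)
    exact ⟨x, ⟨k1, fun e => hc.2 (h.uq h7 hc.1 e h2 k2)⟩, h.uq (h4 x) (h5 x) h7 hc.1 k2⟩
  rw [h.dual.card_on h2, nc (fun x => t • x = x ∧ ¬ inc x b)] at h6
  rw [← h6, ← filter_filter, ← filter_filter, card_filter_add_card_filter_not]

/-- **Baer's theorem**. -/
theorem baer {t : G} (ht : t * t = 1) (h1 : ∀ a, t ∉ Kb inc G a) :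
    ∃ s, 2 ≤ s ∧ s * s = n ∧ {x : Ω | t • x = x}.ncard = s * s + s + 1 ∧
      Des (fun (x : {x : Ω // t • x = x}) (b : {b : B // t • b = b}) => inc x b) (s + 1) 1 := by
  have h2 : ∀ c, t ∉ Ce inc G c := fun c hc => (h.dual.exists_cen hc).elim h1
  have hn := h.two
  have h3 := h.des.card_fix h.hG t
  have k1 := fun b hb => h.baer_cnt ht hb (h1 b)
  have k2 := fun c hc => h.dual.baer_cnt ht hc (h2 c)
  obtain ⟨x, hx⟩ : ∃ x : Ω, t • x ≠ x := by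
    by_contra h4; push Not at h4
    exact h1 h.dual.ne.some fun w _ => h4 w
  obtain ⟨b, h4, h5⟩ := h.jn x (t • x)
  have h6 := k1 b (h.uq ((h.hG t _ _).2 h4) (by
    have := (h.hG t _ _).2 h5; rwa [← mul_smul, ht, one_smul] at this) h5 h4 hx)
  obtain ⟨u, hu, v, hv, huv⟩ := one_lt_card.1
    (by omega : 1 < (univ.filter fun x : Ω => t • x = x).card)
  rw [mem_filter] at hu hv
  obtain ⟨c, h7, h8⟩ := h.jn u v
  have h9 := k1 c (h.fixl hu.2 hv.2 huv h7 h8)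
  have l1 : 1 < (univ.filter fun x => t • x = x ∧ inc x c).card :=
    one_lt_card.2 ⟨u, by simp [hu.2, h7], v, by simp [hv.2, h8], huv⟩
  obtain ⟨s, hs⟩ : ∃ s, (univ.filter fun x : Ω => t • x = x).card = s + 1 + n :=
    ⟨(univ.filter fun x : Ω => t • x = x).card - n - 1, by omega⟩
  have hD : Des (fun (x : {x : Ω // t • x = x}) (b : {b : B // t • b = b}) => inc x b) (s + 1) 1 := by
    refine ⟨by rw [Fintype.card_subtype, Fintype.card_subtype, h3], fun b => ?_, fun w => ?_,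
      fun w w' hw => ?_, by omega⟩
    · have := k1 b b.2
      rw [card_sub _ (fun x => inc x b)]; omega
    · have := k2 w w.2
      rw [card_sub _ (fun b => inc w b)]; omega
    · have l2 : (w : Ω) ≠ w' := fun e => hw (Subtype.ext e)
      rw [card_sub _ (fun b => inc w b ∧ inc w' b), ← h.des.pp w w' l2]
      exact congrArg _ (filter_congr fun b _ =>
        ⟨And.right, fun e => ⟨h.fixl w.2 w'.2 l2 e.1 e.2, e⟩⟩)
  have l3 := hD.eqn ⟨u, hu.2⟩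
  rw [Fintype.card_subtype, hs] at l3
  have l4 : s * s = n := by nlinarith
  exact ⟨s, by nlinarith, l4, by rw [nc, hs]; omega, hD⟩

/-- **André's theorem** for involutory homologies. -/
theorem andre (hn : Odd n) {c c' : Ω} {a : B} (h1 : Ho inc G c a) (h2 : Ho inc G c' a) :
    ∃ τ ∈ h.T a, τ • c = c' := by
  by_cases e : c = c'
  · exact ⟨1, one_mem _, by rw [one_smul, e]⟩
  obtain ⟨h1, α, h3, h4, h5, h6⟩ := h1
  obtain ⟨h2, β, k3, k4, k5, k6⟩ := h2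
  have h7 := (eq_inv_of_mul_eq_one_left h4).symm
  have k7 := (eq_inv_of_mul_eq_one_left k4).symm
  have l1 : α * (α * β) * α⁻¹ = (α * β)⁻¹ := by rw [← mul_assoc, h4, one_mul, mul_inv_rev, k7]
  have l2 : β * (α * β) * β⁻¹ = (α * β)⁻¹ := by
    rw [mul_assoc, mul_inv_cancel_right, mul_inv_rev, k7, h7]
  have hT : α * β ∈ h.T a := by
    obtain ⟨d, hd⟩ := h.exists_cen (mul_mem h5 k5)
    refine ⟨d, by_contra fun l3 => e ?_, mul_mem h5 k5, hd⟩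
    have l4 : α * β ≠ 1 := fun e' => h3 (h.two_ce h6
      (by rw [eq_inv_of_mul_eq_one_left e']; exact inv_mem k6) e)
    have l5 : ∀ γ, γ * (α * β) * γ⁻¹ = (α * β)⁻¹ → γ • d = d := fun γ hγ => by_contra fun l6 =>
      l4 (h.two_ce (inv_mem_iff.1 (hγ ▸ h.conj_C γ hd)) hd l6)
    exact (by_contra fun l6 => h3 (h.semi h5 h6 l3 l6 (l5 α l1)) : d = c).symm.trans
      (by_contra fun l6 => k3 (h.semi k5 k6 l3 l6 (l5 β l2)))
  obtain ⟨k, hk⟩ := (hn.mul hn).of_dvd_nat (h.T_dvd hT)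
  refine ⟨(α * β) ^ k, pow_mem hT k, by_contra fun l3 => k3 (h.two_ce ?_ k6 l3)⟩
  have l4 := h.conj_C ((α * β) ^ k) h6
  have l5 : α * (α * β) ^ k * α⁻¹ = ((α * β) ^ k)⁻¹ := by rw [← conj_pow, l1, inv_pow]
  have l6 := pow_orderOf_eq_one (α * β)
  rw [hk, pow_succ, two_mul, pow_add] at l6
  have l7 : (α * β) ^ k * α * ((α * β) ^ k)⁻¹ = β := by
    calc _ = (α * β) ^ k * (α * α) * (α * β) ^ k * α⁻¹ := by rw [← l5]; group
      _ = _ := by rw [h4, mul_one, eq_inv_of_mul_eq_one_left l6, mul_inv_rev, k7, h7, mul_assoc, h4,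
        mul_one]
  rwa [l7] at l4

theorem el_of_fix {P : Ω} {g l : B} (hP : inc P g) (h1 : inc P l) (hl : l ≠ g) (τ : G) :
    τ ∈ Kb inc G g ⊓ Ce inc G P ↔ τ ∈ h.T g ∧ τ • l = l := by
  refine ⟨fun e => ⟨⟨P, hP, e⟩, e.2 l h1⟩, fun ⟨⟨c, h2, h3, h4⟩, e⟩ => ?_⟩
  by_cases h5 : inc c l
  · exact ⟨h3, h.uq' h5 h1 h2 hP hl ▸ h4⟩
  · exact h.dual.semi h4 h3 h5 hl e ▸ one_mem _

/-- `T g` is transitive on the other lines through `X` -/
def U (X : Ω) (g : B) : Prop := ∃ l, (inc X l ∧ l ≠ g) ∧ (Ob (h.T g) l).ncard = n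

variable [Finite G]

theorem T_pg {a : B} {c c' : Ω} (h1 : inc c a) (h2 : inc c' a) (h3 : c ≠ c')
    (h4 : ∃ σ ≠ 1, σ ∈ Kb inc G a ∧ σ ∈ Ce inc G c)
    (h5 : ∃ σ ≠ 1, σ ∈ Kb inc G a ∧ σ ∈ Ce inc G c') : ∃ p, p.Prime ∧ IsPGroup p (h.T a) :=
  (h.T_ab fun d => by
    by_cases e : c = d
    · exact ⟨c', e ▸ h3.symm, h2, h5⟩
    · exact ⟨c, e, h1, h4⟩).2

omit [Finite G] in
theorem U_nt {X : Ω} {g : B} (hU : h.U X g) :
    ∃ Y, inc Y g ∧ Y ≠ X ∧ ∃ σ ≠ 1, σ ∈ Kb inc G g ∧ σ ∈ Ce inc G Y := by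
  obtain ⟨l, ⟨h1, -⟩, h2⟩ := hU
  obtain ⟨k, ⟨Y, h3, h4, h5⟩, h6⟩ := Ob_nt (h2 ▸ (by have := h.two; omega : n ≠ 1))
  exact ⟨Y, h3, fun e => h6 (h5 l (e ▸ h1)), k, fun e => h6 (by simp [e]), h4, h5⟩

theorem U_pp {X : Ω} {g : B} (hU : h.U X g) (hX : inc X g)
    (h1 : ∃ σ ≠ 1, σ ∈ Kb inc G g ∧ σ ∈ Ce inc G X) : PP n := by
  obtain ⟨Y, h2, h3, h4⟩ := h.U_nt hU
  obtain ⟨p, hp, h5⟩ := h.T_pg h2 hX h3 h4 h1
  obtain ⟨l, -, h6⟩ := hU
  exact h6 ▸ PP.of hp h5 l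

theorem fin (hU : ∀ X g, inc X g → h.U X g ∨ h.dual.U g X) {X : Ω} {g : B} (h1 : h.U X g) :
    PP n := by
  obtain ⟨Y, h2, -, σ, h3, h4, h5⟩ := h.U_nt h1
  exact (hU Y g h2).elim (fun e => h.U_pp e h2 ⟨σ, h3, h4, h5⟩)
    fun e => h.dual.U_pp e h2 ⟨σ, h3, h5, h4⟩

theorem lemA (hn : Odd n) {X : Ω} {g : B} (hX : inc X g) :
    2 * {l | (inc X l ∧ l ≠ g) ∧ ∃ c, inc c l ∧ Ho inc G c g}.ncard ≤ n ∨ h.U X g := by
  have := half (h.T g) (Kb inc G g ⊓ Ce inc G X) {l | inc X l ∧ l ≠ g}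
    {l | (inc X l ∧ l ≠ g) ∧ ∃ c, inc c l ∧ Ho inc G c g}
    (fun k ⟨c, _, h1, _⟩ l hl => ⟨by rw [← h1 X hX, h.hG]; exact hl.1,
      by rw [← h.ax_fix h1]; exact fun e => hl.2 (smul_left_cancel k e)⟩)
    (fun l hl => h.el_of_fix hX hl.1 hl.2) (fun _ => And.left)
    fun l ⟨h1, c, h2, h3⟩ l' ⟨h4, c', h5, h6⟩ => by
      obtain ⟨τ, h7, e⟩ := h.andre hn h3 h6
      obtain ⟨d, -, h8, -⟩ := id h7
      exact ⟨τ, h7, h.uq (e ▸ (h.hG τ c l).2 h2) (by rw [← h8 X hX, h.hG]; exact h1.1) h5 h4.1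
        fun e => h6.1 (e ▸ hX)⟩
  rwa [h.dual.card_on hX] at this

theorem tri (hn : Odd n) (H : ∀ P X l, inc X l → ¬ inc P l → ∃ t : G, t ≠ 1 ∧ t * t = 1 ∧
      t • P = P ∧ t • X = X ∧ t • l = l ∧ ∃ a, t ∈ Kb inc G a) (hP : ¬ PP n) (X : Ω) (g : B)
    (hX : inc X g) : h.U X g ∨ h.dual.U g X := by
  refine (h.lemA hn hX).elim (fun hB => (h.dual.lemA hn hX).elim (fun hA => (hP ?_).elim) Or.inr)
    Or.inl
  set A := {P | (inc P g ∧ P ≠ X) ∧ ∃ a, inc P a ∧ Ho (fun b w => inc w b) G a X}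
  set C := {l | (inc X l ∧ l ≠ g) ∧ ∃ c, inc c l ∧ Ho inc G c g}
  have key : ∀ P ∈ {P | inc P g ∧ P ≠ X} \ A, ∀ l ∈ {l | inc X l ∧ l ≠ g} \ C, Ho inc G P l := by
    rintro P ⟨h1, h2⟩ l ⟨h3, h4⟩
    have h5 : ¬ inc P l := fun e => h3.2 (h.uq e h3.1 h1.1 hX h1.2)
    obtain ⟨t, k1, k2, k3, k4, k5, a, k6⟩ := H P X l h3.1 h5
    obtain ⟨c, k7⟩ := h.exists_cen k6
    have k8 : ¬ inc c a := fun e => by
      have := h.T_dvd ⟨c, e, k6, k7⟩
      rw [orderOf_eq_prime (p := 2) (by rwa [sq]) k1] at this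
      exact (hn.mul hn).not_two_dvd_nat this
    have k9 : ∀ y, t • y = y → y ≠ c → inc y a := fun y e e' =>
      by_contra fun e'' => k1 (h.semi k6 k7 e'' e' e)
    have l1 : l ≠ a → inc c l := fun e => by_contra fun e' => k1 (h.dual.semi k7 k6 e' e k5)
    have l2 : X ≠ c := by
      rintro rfl
      exact h2 ⟨h1, a, k9 P k3 h1.2, k8, t, k1, k2, k7, k6⟩
    have l3 : P = c := by_contra fun e => by
      obtain rfl := h.uq (k9 P k3 e) (k9 X k4 l2) h1.1 hX h1.2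
      exact h4 ⟨h3, c, l1 h3.2, k8, t, k1, k2, k6, k7⟩
    subst l3
    obtain rfl : l = a := by_contra fun e => h5 (l1 e)
    exact ⟨k8, t, k1, k2, k6, k7⟩
  have k2 : ∀ P ∈ {P | inc P g ∧ P ≠ X} \ A, ∃ l : B, (Ob (Kb inc G g ⊓ Ce inc G P) l).ncard = n :=
    fun P hP => by
      have h1 := half (Kb inc G g ⊓ Ce inc G P) ⊥ {l | inc X l ∧ l ≠ g} ({l | inc X l ∧ l ≠ g} \ C)
        (fun k hk l hl => ⟨by rw [← hk.1 X hX, h.hG]; exact hl.1,
          by rw [← h.ax_fix hk.1]; exact fun e => hl.2 (smul_left_cancel k e)⟩)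
        (fun l hl k => ⟨fun e => by simp [mem_bot.1 e], fun e => h.dual.semi e.1.2 e.1.1
          (fun e => hl.2 (h.uq e hl.1 hP.1.1 hX hP.1.2)) hl.2 e.2⟩) Set.diff_subset
        fun l hl l' hl' => by
          obtain ⟨τ, h7, e⟩ := h.dual.andre hn (key P hP l hl).dual (key P hP l' hl').dual
          obtain ⟨d, -, h8, -⟩ := id h7
          refine ⟨τ, ((h.dual.el_of_fix hP.1.1 hX hP.1.2.symm τ).2 ⟨h7, ?_⟩).symm, e⟩
          exact h.uq' (e ▸ (h.hG τ X l).2 hl.1.1) hl'.1.1 ((h.on (h8 g hP.1.1)).2 hX) hX hl'.1.2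
      have h2 := Set.ncard_diff_add_ncard_of_subset (s := C) (t := {l | inc X l ∧ l ≠ g})
        (fun _ => And.left)
      rw [h.dual.card_on hX] at h1 h2
      obtain ⟨m, hm⟩ := hn
      exact (h1.resolve_left (by omega)).imp fun _ => And.right
  have k3 := fun P hP => (k2 P hP).elim fun l hl => by
    obtain ⟨k, h1, h2⟩ := Ob_nt (hl ▸ (by have := h.two; omega : n ≠ 1))
    exact (⟨k, fun e => h2 (by simp [e]), h1⟩ : ∃ σ ≠ 1, σ ∈ Kb inc G g ∧ σ ∈ Ce inc G P)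
  have h2 := Set.ncard_diff_add_ncard_of_subset (s := A) (t := {P | inc P g ∧ P ≠ X})
    (fun _ => And.left)
  rw [h.card_on hX] at h2
  obtain ⟨P, P', h3, h4, h5⟩ := (Set.one_lt_ncard_iff (Set.toFinite ({P | inc P g ∧ P ≠ X} \ A))).1
    (by obtain ⟨m, hm⟩ := hn; have := h.two; omega)
  obtain ⟨p, hp, h6⟩ := h.T_pg h3.1.1 h4.1.1 h5 (k3 P h3) (k3 P' h4)
  obtain ⟨l, hl⟩ := k2 P h3
  exact hl ▸ PP.of hp (h6.to_le fun k hk => ⟨P, h3.1.1, hk⟩) l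

/-- many involutory homologies force prime power order -/
theorem pp (hn : Odd n) (H : ∀ P X l, inc X l → ¬ inc P l → ∃ t : G, t ≠ 1 ∧ t * t = 1 ∧
      t • P = P ∧ t • X = X ∧ t • l = l ∧ ∃ a, t ∈ Kb inc G a) : PP n := by
  by_contra hP
  obtain ⟨g, hg, -⟩ := h.jn h.ne.some h.ne.some
  exact hP ((h.tri hn H hP _ g hg).elim (h.fin (h.tri hn H hP))
    (h.dual.fin fun g X e => (h.tri hn H hP X g e).symm))

end Pl

end Cfsg.Agent.H19.ON
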