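import Cfsg.Agent.H19.ONn

/-! The Ostrom–Wagner theorem: existence of elations. -/

set_option autoImplicit false

namespace Cfsg.Agent.H19.ON

open Finset Subgroup MulAction
open scoped Classical

section aux
variable {G X : Type*} [Group G] [MulAction G X]

theorem exists_dbl [Finite G] {Φ D : Subgroup G} (h : Φ ≤ D) {a : ℕ} (h1 : Nat.card Φ = 2 ^ a)
    (h2 : 2 ^ (a + 1) ∣ Nat.card D) : ∃ K, Φ ≤ K ∧ K ≤ D ∧ Nat.card K = 2 ^ (a + 1) := by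
  obtain ⟨K, h3, h4⟩ := Sylow.exists_subgroup_card_pow_succ h2 (H := Φ.subgroupOf D)
    (by rw [← h1]; exact Nat.card_congr (subgroupOfEquivOfLe h).toEquiv)
  exact ⟨K.map D.subtype, fun x hx => ⟨⟨x, h hx⟩, h4 hx, rfl⟩, map_subtype_le _,
    by rw [card_map_of_injective (subtype_injective _), h3]⟩

theorem exists_perm {Φ : Subgroup G} {t : G} (h1 : t * t ∈ Φ) (h2 : ∀ φ ∈ Φ, t⁻¹ * φ * t ∈ Φ) :
    ∃ σ : Equiv.Perm {x : X // ∀ g ∈ Φ, g • x = x}, ∀ x, (σ x : X) = t • (x : X) :=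
  ⟨Function.Involutive.toPerm (fun x => ⟨t • x.1, fun g hg => by
    have := x.2 _ (h2 g hg)
    rwa [mul_smul, mul_smul, inv_smul_eq_iff] at this⟩) fun x => Subtype.ext (by
      simpa [mul_smul] using x.2 _ h1), fun _ => rfl⟩

theorem exists_eqv {Φ K : Subgroup G} (h : Φ ≤ K) {p : {x : X // ∀ g ∈ Φ, g • x = x} → Prop}
    (hp : ∀ x, p x ↔ ∀ g ∈ K, g • (x : X) = x) :
    ∃ e : {x // p x} ≃ {x : X // ∀ g ∈ K, g • x = x}, ∀ x, (e x : X) = x.1.1 :=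
  ⟨⟨fun x => ⟨x.1.1, (hp _).1 x.2⟩, fun x => ⟨⟨x.1, fun g hg => x.2 g (h hg)⟩, (hp _).2 x.2⟩,
    fun _ => rfl, fun _ => rfl⟩, fun _ => rfl⟩

theorem fix_iff {Φ K : Subgroup G} {t : G} (ht : t ∈ K) (h : ∀ k ∈ K, k ∈ Φ ∨ k * t ∈ Φ)
    (x : {x : X // ∀ g ∈ Φ, g • x = x}) : t • (x : X) = x ↔ ∀ g ∈ K, g • (x : X) = x :=
  ⟨fun e g hg => (h g hg).elim (x.2 g) fun e' => by rw [← e, ← mul_smul, x.2 _ e', e],
    fun e => e t ht⟩

theorem exists_ord [Finite G] {p : ℕ} (hp : p.Prime) {M : Subgroup G} (hM : IsPGroup p M) {t : G}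
    (ht : t ∈ M) (h1 : t ≠ 1) : ∃ k : ℕ, t ^ k ≠ 1 ∧ (t ^ k) ^ p = 1 := by
  obtain ⟨j, hj⟩ := hM ⟨t, ht⟩
  obtain ⟨i, -, hi⟩ := (Nat.dvd_prime_pow hp).1
    (orderOf_dvd_of_pow_eq_one (congrArg Subtype.val hj : t ^ p ^ j = 1))
  have h2 := orderOf_pow_orderOf_div (orderOf_pos t).ne' (hi ▸ dvd_pow_self p (by
    rintro rfl; exact h1 (orderOf_eq_one_iff.1 hi)) : p ∣ orderOf t)
  exact ⟨orderOf t / p, fun e => hp.one_lt.ne' (by rw [← h2, e, orderOf_one]),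
    orderOf_dvd_iff_pow_eq_one.1 h2.dvd⟩

end aux

variable {Ω B : Type*} [Fintype Ω] [Fintype B] {inc : Ω → B → Prop} {n : ℕ}
  {G : Type*} [Group G] [MulAction G Ω] [MulAction G B]

namespace Pl
variable (h : Pl inc G n) (h2 : Two G Ω)
include h h2

theorem Ob_st {P X : Ω} (hP : P ≠ X) : (Ob (stabilizer G P) X).ncard = n * n + n := by
  have : Ob (stabilizer G P) X = Set.univ \ {P} := Set.ext fun y =>
    ⟨fun ⟨k, hk, e⟩ => ⟨trivial, fun e' => hP (smul_left_cancel k (by rw [e, e', hk]))⟩,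
      fun hy => h2.two hP (Ne.symm hy.2)⟩
  rw [this, Set.ncard_diff_singleton_of_mem (Set.mem_univ P), Set.ncard_univ,
    Nat.card_eq_fintype_card, h.card P]
  rfl

theorem card_st {P X : Ω} (hP : P ≠ X) : Nat.card (stabilizer G P) =
    (n * n + n) * Nat.card (stabilizer G P ⊓ stabilizer G X : Subgroup G) := by
  rw [← h.Ob_st h2 hP]; exact card_Ob _ _ X fun _ => Iff.rfl

omit h in
theorem st_eq [Finite G] {P X U V : Ω} (hP : P ≠ X) (hU : U ≠ V) :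
    Nat.card (stabilizer G P ⊓ stabilizer G X : Subgroup G) =
      Nat.card (stabilizer G U ⊓ stabilizer G V : Subgroup G) :=
  h2.card_eq (fun x y => stabilizer G x ⊓ stabilizer G y) (fun g x y n hn =>
    ⟨by simpa [mul_smul] using hn.1, by simpa [mul_smul] using hn.2⟩) hP hU

omit h2 in
theorem Ob_sub {P X : Ω} {l g : B} (h1 : inc X l) (h3 : ¬ inc P l) (h4 : inc P g) {M : Subgroup G}
    (hM : M ≤ stabilizer G P ⊓ stabilizer G X) : Ob M l ⊆ {c | inc X c ∧ c ≠ g} := by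
  rintro _ ⟨k, hk, rfl⟩
  exact ⟨by rw [← (hM hk).2, h.hG]; exact h1, fun e => h3 (by rwa [← h.hG k, (hM hk).1, e])⟩

variable [Finite G]

theorem T3 {P X : Ω} {l : B} (h1 : inc X l) (h3 : ¬ inc P l) :
    (Ob (stabilizer G P ⊓ stabilizer G X) l).ncard = n := by
  have h4 := h.card_st h2 (fun e : P = X => h3 (e ▸ h1))
  have h5 : Ob (stabilizer G P) l = {c | ¬ inc P c} := Set.ext fun y =>
    ⟨fun ⟨k, hk, e⟩ e' => h3 (by rwa [← h.hG k, hk, e]), fun hy => h.des.anti h.hG h2 h3 hy⟩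
  obtain ⟨w, hw⟩ := card_dvd_of_le (inf_le_inf_right (stabilizer G l)
    (inf_le_left (a := stabilizer G P) (b := stabilizer G X)))
  rw [card_Ob _ (stabilizer G P ⊓ stabilizer G l) l fun _ => Iff.rfl, h5, h.dual.card_off, hw,
    card_Ob (stabilizer G P ⊓ stabilizer G X) (_ ⊓ stabilizer G l) l fun _ => Iff.rfl] at h4
  have hn := h.two
  have h6 : n * w = (n + 1) * (Ob (stabilizer G P ⊓ stabilizer G X) l).ncard :=
    Nat.eq_of_mul_eq_mul_left (Nat.mul_pos (by omega : 0 < n) (Nat.card_pos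
      (α := (stabilizer G P ⊓ stabilizer G X ⊓ stabilizer G l : Subgroup G)))) (by linarith)
  obtain ⟨g, h7, h8⟩ := h.jn P X
  exact le_antisymm ((Set.ncard_le_ncard (h.Ob_sub h1 h3 h7 le_rfl)).trans (h.dual.card_on h8).le)
    (Nat.le_of_dvd ((Set.ncard_pos (Set.toFinite _)).2 ⟨l, Ob_self _ l⟩)
      ((by simp : n.Coprime (n + 1)).dvd_of_dvd_mul_left ⟨w, h6.symm⟩))

theorem el_even (hn : 2 ∣ n) : ∃ a, ∃ σ ≠ 1, σ ∈ h.T a := by
  obtain ⟨P⟩ := h.ne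
  obtain ⟨X, -, hX, -⟩ := h.three h.dual.ne.some P P
  obtain ⟨M, h3, h4, u, h5, h6⟩ := exists_syl 2 (stabilizer G P)
  obtain ⟨z, h7, h8, h9⟩ := exists_cent (D := M) h4 ((Nat.prime_two.dvd_mul.1 (h5 ▸ h.card_st h2 hX.symm ▸
    (dvd_add (hn.mul_right n) hn).mul_right _)).resolve_right h6)
    fun a ha b hb => mul_mem (mul_mem ha hb) (inv_mem ha)
  obtain ⟨k, k1, k2⟩ := exists_ord Nat.prime_two h4 h7 h8
  by_cases k3 : ∃ a, z ^ k ∈ Kb inc G a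
  · exact k3.imp fun a ha => ⟨_, k1, h.mem_T ha Nat.prime_two hn k2⟩
  obtain ⟨s, k4, k5, k6, -⟩ := h.baer (by rwa [← sq]) (not_exists.1 k3)
  have k7 := Set.ncard_diff_singleton_add_one (s := {x : Ω | z ^ k • x = x}) (h3 (pow_mem h7 k))
  have k8 : 2 ∣ s := (Nat.prime_two.dvd_mul.1 (k5 ▸ hn)).elim id id
  have k9 : ∀ j, 2 ^ j ∣ s := fun j => by
    induction j with
    | zero => simp
    | succ j ih =>
      have l1 : 2 ^ (j + 1) ∣ n := k5 ▸ pow_succ 2 j ▸ mul_dvd_mul ih k8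
      have l2 := dvd_ncard M (2 ^ (j + 1)) _ ({x : Ω | z ^ k • x = x} \ {P}) rfl
        (fun m hm y hy => ⟨by
          change _ • _ = _
          rw [← mul_smul, ← (Commute.pow_right (h9 m hm) k).eq, mul_smul, hy.1],
          fun e => hy.2 (smul_left_cancel m (e.trans (h3 hm).symm))⟩)
        fun y hy => dvd_Ob Nat.prime_two h3 h5 h6 y
          (h.Ob_st h2 (Ne.symm hy.2) ▸ dvd_add (l1.mul_right n) l1)
      rw [k6] at k7
      rw [show Set.ncard _ = (s + 1) * s by linarith] at l2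
      exact (Nat.Coprime.pow_left _ ((Nat.Prime.coprime_iff_not_dvd Nat.prime_two).2
        (by omega))).dvd_of_dvd_mul_left l2
  exact absurd (Nat.le_of_dvd (by omega) (k9 s)) (not_le.2 s.lt_two_pow_self)

theorem el_pp (hn : PP n) : ∃ a, ∃ σ ≠ 1, σ ∈ h.T a := by
  obtain ⟨p, j, hp, hj⟩ := hn
  haveI := Fact.mk hp
  have hpn : p ∣ n := hj ▸ dvd_pow_self p (by rintro rfl; have := h.two; simp [hj] at this)
  obtain ⟨g⟩ := h.dual.ne
  obtain ⟨P, hP, -⟩ := h.mt g g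
  obtain ⟨X, hX, hPX, -⟩ := h.three g P P
  obtain ⟨M, h3, h4, u, h5, h6⟩ := exists_syl p (stabilizer G P ⊓ stabilizer G X)
  obtain ⟨l₀, k1, k2, -⟩ := h.three' X g g
  have k3 := h.T3 h2 k1 (fun e => k2 (h.uq k1 e hX hP hPX))
  obtain ⟨z, h7, h8, h9⟩ := exists_cent (D := M) h4 ((hp.dvd_mul.1 (h5 ▸
    card_Ob _ (_ ⊓ stabilizer G l₀) l₀ (fun _ => Iff.rfl) ▸ (k3.symm ▸ hpn).mul_right _)).resolve_right h6)
    fun a ha b hb => mul_mem (mul_mem ha hb) (inv_mem ha)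
  have hg : ∀ m ∈ M, m • g = g := fun m hm => h.fixl (h3 hm).1 (h3 hm).2 hPX.symm hP hX
  have hz : ∀ m ∈ M, ∀ l : B, z • l = l → z • m • l = m • l := fun m hm l e => by
    rw [← mul_smul, ← h9 m hm, mul_smul, e]
  obtain ⟨Y, l, l1, l2, l3, l4, l5⟩ : ∃ Y l, (∀ m ∈ M, m • Y = Y) ∧ inc Y g ∧ inc Y l ∧ l ≠ g ∧
      z • l = l := by
    by_cases l1 : ∃ W, ¬ inc W g ∧ z • W = W
    · obtain ⟨W, l2, l3⟩ := l1
      obtain ⟨l, l4, l5⟩ := h.jn X W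
      exact ⟨X, l, fun m hm => (h3 hm).2, hX, l4, fun e => l2 (e ▸ l5),
        h.fixl (h3 h7).2 l3 (fun e => l2 (e ▸ hX)) l4 l5⟩
    obtain ⟨l, l2, l3⟩ := exists_mem_ne (h.des.card_fix h.hG z ▸ one_lt_card.2
      ⟨X, by simpa using (h3 h7).2, P, by simpa using (h3 h7).1, hPX⟩) g
    rw [mem_filter] at l2
    obtain ⟨Y, l4, l5⟩ := h.mt g l
    refine ⟨Y, l, fun m hm => ?_, l4, l5, l3, l2.2⟩
    by_cases l6 : m • l = l
    · exact h.fixp l6 (hg m hm) l3 l5 l4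
    obtain ⟨W, l7, l8⟩ := h.mt (m • l) l
    have l9 : inc W g := by_contra fun e => l1 ⟨W, e, h.fixp (hz m hm l l2.2) l2.2 l6 l7 l8⟩
    exact h.uq' ((h.hG m Y l).2 l5) (h.uq' l8 l5 l9 l4 l3 ▸ l7) ((h.on (hg m hm)).2 l4) l4
      fun e => l3 (smul_left_cancel m (e.trans (hg m hm).symm))
  obtain ⟨Z, l6, l7, l8⟩ : ∃ Z, (∀ m ∈ M, m • Z = Z) ∧ inc Z g ∧ Z ≠ Y := by
    by_cases e : P = Y
    · exact ⟨X, fun m hm => (h3 hm).2, hX, e ▸ hPX⟩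
    · exact ⟨P, fun m hm => (h3 hm).1, hP, e⟩
  have l9 : ¬ inc Z l := fun e => l4 (h.uq e l3 l7 l2 l8)
  have m1 : M ≤ stabilizer G Z ⊓ stabilizer G Y := fun m hm => ⟨l6 m hm, l1 m hm⟩
  have m2 := Set.eq_of_subset_of_ncard_le (h.Ob_sub l3 l9 l7 m1) (by
    rw [h.dual.card_on l2, hj]
    exact Nat.le_of_dvd ((Set.ncard_pos (Set.toFinite _)).2 ⟨l, Ob_self _ l⟩)
      (dvd_Ob hp m1 ((st_eq h2 l8 hPX.symm).trans h5) h6 l (by rw [h.T3 h2 l3 l9, hj])))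
  have m3 : z ∈ Ce inc G Y := fun c hc => by
    by_cases e : c = g
    · rw [e, hg z h7]
    · obtain ⟨m, hm, rfl⟩ : c ∈ Ob M l := m2 ▸ ⟨hc, e⟩
      exact hz m hm l l5
  obtain ⟨k, m4, m5⟩ := exists_ord hp h4 h7 h8
  obtain ⟨a, m6, m7, m8⟩ := h.dual.mem_T (pow_mem m3 k) hp hpn m5
  exact ⟨a, _, m4, Y, m6, m8, m7⟩

theorem pp_odd (hn : Odd n) : PP n := by
  let Q : Subgroup G → Prop := fun Φ => IsPGroup 2 Φ ∧ ∃ m j, 2 ≤ m ∧ n = m ^ j ∧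
    Nonempty {x : Ω // ∀ g ∈ Φ, g • x = x} ∧ Des (fun (x : {x : Ω // ∀ g ∈ Φ, g • x = x})
      (b : {b : B // ∀ g ∈ Φ, g • b = b}) => inc x b) (m + 1) 1
  have h0 : ∀ {X : Type _} [MulAction G X] (x : X), ∀ g ∈ (⊥ : Subgroup G), g • x = x :=
    fun x g hg => by rw [mem_bot.1 hg, one_smul]
  have h0' : ∀ x : B, ∀ g ∈ (⊥ : Subgroup G), g • x = x :=
    fun x g hg => by rw [mem_bot.1 hg, one_smul]
  haveI : Nonempty {Φ // Q Φ} := ⟨⟨⊥, IsPGroup.of_bot, n, 1, h.two, (pow_one n).symm,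
    h.ne.map fun x => ⟨x, h0 x⟩, h.des.equiv (Equiv.subtypeUnivEquiv h0).symm
      (Equiv.subtypeUnivEquiv h0').symm fun _ _ => Iff.rfl⟩⟩
  obtain ⟨⟨Φ, h3, m, j, h4, h5, h6, h7⟩, hmax⟩ := Finite.exists_max fun Φ : {Φ // Q Φ} => Nat.card Φ.1
  obtain ⟨G₀, _, _, h₀, h8⟩ := h7.exists_aut h4 h6
  obtain ⟨a, ha⟩ := IsPGroup.iff_card.1 h3
  have step : ∀ K, Φ ≤ K → Nat.card K = 2 ^ (a + 1) → ∃ t : G₀, t ≠ 1 ∧ t * t = 1 ∧
      (∃ b, t ∈ Kb (fun (x : {x : Ω // ∀ g ∈ Φ, g • x = x})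
        (b : {b : B // ∀ g ∈ Φ, g • b = b}) => inc x b) G₀ b) ∧
      (∀ x : {x : Ω // ∀ g ∈ Φ, g • x = x}, t • x = x ↔ ∀ g ∈ K, g • (x : Ω) = x) ∧
      ∀ x : {x : B // ∀ g ∈ Φ, g • x = x}, t • x = x ↔ ∀ g ∈ K, g • (x : B) = x := fun K k1 k2 => by
    have k3 := (Φ.subgroupOf K).card_mul_index
    rw [Nat.card_congr (subgroupOfEquivOfLe k1).toEquiv, ha, k2, pow_succ] at k3
    obtain ⟨t, ht⟩ := index_eq_two_iff.1 (Nat.eq_of_mul_eq_mul_left (by positivity) k3)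
    have k4 : ∀ k ∈ K, k ∈ Φ ∨ k * t ∈ Φ := fun k hk => (ht ⟨k, hk⟩).or.symm
    have k5 : (t : G) ∉ Φ := fun e => by simpa [mem_subgroupOf, e] using ht 1
    have k6 := (k4 t t.2).resolve_left k5
    have k7 : ∀ φ ∈ Φ, (t : G)⁻¹ * φ * t ∈ Φ := fun φ hφ =>
      (k4 _ (mul_mem (inv_mem t.2) (k1 hφ))).resolve_left fun e =>
        k5 (inv_mem_iff.1 ((mul_mem_cancel_right hφ).1 e))
    obtain ⟨σ, hσ⟩ := exists_perm (X := Ω) k6 k7
    obtain ⟨τ, hτ⟩ := exists_perm (X := B) k6 k7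
    obtain ⟨t₀, k8, k9⟩ := h8 σ τ fun w b => by rw [hσ, hτ, h.hG]
    have l1 := fun x => (by rw [k8, Subtype.ext_iff, hσ] : t₀ • x = x ↔ _).trans
      (fix_iff (X := Ω) t.2 k4 x)
    have l2 := fun x => (by rw [k9, Subtype.ext_iff, hτ] : t₀ • x = x ↔ _).trans
      (fix_iff (X := B) t.2 k4 x)
    have l3 : t₀ * t₀ = 1 := h₀.fp _ fun x => Subtype.ext (by
      rw [mul_smul, k8, k8, hσ, hσ, ← mul_smul, x.2 _ k6])
    obtain ⟨e, he⟩ := exists_eqv k1 l1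
    obtain ⟨f, hf⟩ := exists_eqv k1 l2
    have l4 : ¬ Q K := fun e => by
      have := hmax ⟨K, e⟩
      simp only [ha, k2] at this
      exact absurd this (not_le.2 (Nat.pow_lt_pow_succ one_lt_two))
    refine ⟨t₀, fun l5 => l4 ⟨IsPGroup.of_card k2, m, j, h4, h5, ?_⟩, l3, by_contra fun l5 => ?_,
      l1, l2⟩
    · subst l5
      exact ⟨h6.map fun x => e ⟨x, one_smul _ _⟩, (h7.equiv
        (Equiv.subtypeUnivEquiv fun _ => one_smul _ _).symm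
        (Equiv.subtypeUnivEquiv fun _ => one_smul _ _).symm (inc' := fun x b => inc x.1.1 b.1.1)
        fun _ _ => Iff.rfl).equiv e f fun x b => by rw [he, hf]⟩
    obtain ⟨s, l6, l7, l8, l9⟩ := h₀.baer l3 (not_exists.1 l5)
    obtain ⟨x, hx⟩ := Set.nonempty_of_ncard_ne_zero (l8 ▸ Nat.add_one_ne_zero _)
    exact l4 ⟨IsPGroup.of_card k2, s, 2 * j, l6, by rw [h5, pow_mul, sq, l7], ⟨e ⟨x, hx⟩⟩,
      @Des.equiv _ _ (_) (_) _ _ _ _ _ _ _ _ l9 e f fun x b => by rw [he, hf]⟩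
  have hm : Odd m := Nat.not_even_iff_odd.1 fun e => Nat.not_even_iff_odd.2 hn
    (h5 ▸ Nat.even_pow.2 ⟨e, by rintro rfl; have := h.two; simp [h5] at this⟩)
  obtain ⟨p, i, hp, hi⟩ := h₀.pp hm fun P X l k1 k2 => by
    have k3 : (P : Ω) ≠ X := fun e => k2 (by rw [e]; exact k1)
    have k4 : Φ ≤ stabilizer G (P : Ω) ⊓ stabilizer G (X : Ω) ⊓ stabilizer G (l : B) :=
      fun g hg => ⟨⟨P.2 g hg, X.2 g hg⟩, l.2 g hg⟩
    obtain ⟨K, k5, k6, k7⟩ := exists_dbl k4 ha (by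
      obtain ⟨K, k5, -, k7⟩ := exists_dbl (D := ⊤) le_top ha (by
        refine dvd_trans ?_ (card_dvd_of_le (le_top (a := stabilizer G (P : Ω))))
        rw [h.card_st h2 k3, pow_succ', ← ha]
        exact mul_dvd_mul (by simpa [mul_add] using (Nat.even_mul_succ_self n).two_dvd)
          (card_dvd_of_le (k4.trans inf_le_left)))
      obtain ⟨t, -, -, ⟨b, hb⟩, k8, -⟩ := step K k5 k7
      obtain ⟨U, l1, -⟩ := h₀.mt b b
      obtain ⟨V, l2, l3, -⟩ := h₀.three b U U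
      have l4 := card_dvd_of_le (show K ≤ stabilizer G (V : Ω) ⊓ stabilizer G (U : Ω) from
        fun g hg => ⟨(k8 V).1 (hb V l2) g hg, (k8 U).1 (hb U l1) g hg⟩)
      rw [k7, st_eq h2 (fun e => l3 (Subtype.ext e)) k3,
        card_Ob _ (_ ⊓ stabilizer G (l : B)) (l : B) fun _ => Iff.rfl, h.T3 h2 k1 k2] at l4
      exact (Nat.Coprime.pow_left _ hn.coprime_two_left).dvd_of_dvd_mul_left l4)
    obtain ⟨t, l1, l2, l3, l4, l5⟩ := step K k5 k7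
    exact ⟨t, l1, l2, (l4 P).2 fun g hg => (k6 hg).1.1, (l4 X).2 fun g hg => (k6 hg).1.2,
      (l5 l).2 fun g hg => (k6 hg).2, l3⟩
  exact ⟨p, i * j, hp, by rw [h5, hi, pow_mul]⟩

theorem exists_el : ∃ a, ∃ σ ≠ 1, σ ∈ h.T a :=
  (Nat.even_or_odd n).elim (fun e => h.el_even h2 e.two_dvd) fun e => h.el_pp h2 (h.pp_odd h2 e)

end Pl

end Cfsg.Agent.H19.ON
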