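import Cfsg.Agent.H19.ONo

/-! The Ostrom–Wagner theorem. -/

set_option autoImplicit false

namespace Cfsg.Agent.H19.ON

open Finset Subgroup MulAction Projectivization
open scoped Classical

variable {Ω B : Type*} [Fintype Ω] [Fintype B] {inc : Ω → B → Prop} {n : ℕ}
  {G : Type*} [Group G] [MulAction G Ω] [MulAction G B] [Finite G]

namespace Pl
variable (h : Pl inc G n) (h2 : Two G Ω)
include h h2

theorem exists_fam : ∃ M : Ω → Subgroup G, Fam M ∧
    ∀ x y b, x ≠ y → inc x b → inc y b → ∀ z, z ∈ Ln M x y ↔ inc z b := by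
  obtain ⟨a, σ, h1, c, h3, h4, h5⟩ := h.exists_el h2
  obtain ⟨x, h6, h7, -⟩ := h.three a c c
  obtain ⟨M, hM, h8⟩ := h2.exists_fam c (h.dual.T c) (fun m ⟨_, _, e, _⟩ => h.ce_fix e)
    (fun g hg m hm => by simpa [hg] using h.dual.conj_T g hm) (h.dual.T_ab fun b => by
      by_cases e : a = b
      · obtain ⟨y, hy⟩ := h.off a
        obtain ⟨g, k1, k2⟩ := h2.two h7.symm (fun e => hy (e ▸ h3) : c ≠ y)
        exact ⟨g • a, fun e' => hy (by rw [e, ← e', ← k2, h.hG]; exact h6),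
          by rw [← k1, h.hG]; exact h3, g * σ * g⁻¹, by simpa using h1, k1 ▸ h.conj_C g h5,
          h.conj_K g h4⟩
      · exact ⟨a, e, h3, σ, h1, h5, h4⟩).1 ⟨σ, ⟨a, h3, h5, h4⟩, h1, x, h7, h4 x h6⟩
  have k1 : ∀ y, ∀ m ∈ M y, m ∈ h.dual.T y := fun y m hm => by
    obtain ⟨k, rfl⟩ := h2.trans c y
    simpa [mul_assoc] using h.dual.conj_T k (h8 _ hm k rfl)
  have k2 : ∀ x y b, inc x b → inc y b → Ln M x y ⊆ {z | inc z b} := by
    rintro x y b k2 k3 _ (rfl | ⟨m, hm, rfl⟩)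
    · exact k2
    · obtain ⟨_, -, k4, -⟩ := k1 x m hm
      exact (h.on (k4 b k2)).2 k3
  obtain ⟨s, y, hy, -⟩ := hM.exists_Hy h7
  obtain ⟨a₀, k3, k4, k5⟩ := k1 y s hy.mem
  obtain ⟨z, hz⟩ := h.off a₀
  obtain ⟨b₀, k6, k7⟩ := h.jn z y
  have k8 : z ≠ y := fun e => hz (e ▸ k3)
  have k9 : {w | inc w b₀} ⊆ Ln M z y := fun w hw => by
    by_cases e : z = w
    · exact Or.inl e.symm
    obtain ⟨u, l1, l2⟩ := hM.hyper hy e
    have l3 : inc u a₀ := by_contra fun e => hy.ne (h.semi k5 k4 e (fun e' => e (e' ▸ k3)) l2)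
    obtain rfl := h.uq' (k2 z w b₀ k6 hw l1) k7 l3 k3 fun e => hz (e ▸ k6)
    rw [Fam.Ln_of_mem l1 k8.symm]
    exact Fam.right_mem z w
  refine ⟨M, hM, fun u v b huv l1 l2 => Set.ext_iff.1 (Set.eq_of_subset_of_ncard_le
    (t := {z | inc z b}) (k2 u v b l1 l2) ?_)⟩
  rw [hM.card_Ln huv, hM.q_eq huv k8, ← hM.card_Ln k8, nc, h.des.blk, ← h.des.blk b₀, ← nc]
  exact Set.ncard_le_ncard k9

/-- **The Ostrom–Wagner theorem**. -/
theorem desarg : ∃ (F : Type) (_ : Field F) (_ : Fintype F) (φ : Ω ≃ Projectivization F (Fin 3 → F)),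
    (∀ l : B, ∃ W : Submodule F (Fin 3 → F), Module.finrank F W = 2 ∧
      ∀ p : Ω, inc p l ↔ (φ p).submodule ≤ W) ∧
    (∀ W : Submodule F (Fin 3 → F), Module.finrank F W = 2 →
      ∃ l : B, ∀ p : Ω, inc p l ↔ (φ p).submodule ≤ W) := by
  obtain ⟨M, hM, h1⟩ := h.exists_fam h2
  obtain ⟨F, _, _, d, ψ, h3, -, h4⟩ := hM.main
  have key : ∀ u v : Projectivization F (Fin d → F), u ≠ v → ∀ b, inc (ψ u) b → inc (ψ v) b → ∀ p,
      inc p b ↔ (ψ.symm p).rep ∈ Submodule.span F {u.rep, v.rep} := fun u v huv b k1 k2 p => by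
    have := h4 _ u.rep_nonzero _ v.rep_nonzero _ (ψ.symm p).rep_nonzero
    simp only [mk_rep, Equiv.apply_symm_apply] at this
    rw [← h1 _ _ b (ψ.injective.ne huv) k1 k2, this (ψ.injective.ne huv), Submodule.mem_span_pair]
    simp only [eq_comm]
  obtain rfl : d = 3 := by
    by_contra h5
    obtain ⟨d, rfl⟩ : ∃ e, d = e + 4 := ⟨d - 4, by omega⟩
    have e0 : ∀ i : Fin (d + 4), (Pi.single i 1 : Fin (d + 4) → F) ≠ 0 := fun i => by simp
    have e1 : ∀ i j, i ≠ j → ψ (Projectivization.mk F _ (e0 i)) ≠ ψ (Projectivization.mk F _ (e0 j)) := fun i j hij e => by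
      obtain ⟨a, ha⟩ := (mk_eq_mk_iff' F _ _ _ _).1 (ψ.injective e)
      simpa [hij] using congrFun ha i
    obtain ⟨b, k1, k2⟩ := h.jn (ψ (Projectivization.mk F _ (e0 0))) (ψ (Projectivization.mk F _ (e0 1)))
    obtain ⟨c, k3, k4⟩ := h.jn (ψ (Projectivization.mk F _ (e0 2))) (ψ (Projectivization.mk F _ (e0 3)))
    obtain ⟨z, k5, k6⟩ := h.mt b c
    obtain ⟨z, rfl⟩ := ψ.surjective z
    induction z using Projectivization.ind with
    | h w hw =>
    have l1 : (0 : Fin (d + 4)) ≠ 1 := by simp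
    have l2 : (2 : Fin (d + 4)) ≠ 3 := by simp [Fin.ext_iff, Fin.val_ofNat, Nat.mod_eq_of_lt]
    obtain ⟨a1, a2, l3⟩ := (h4 _ _ _ _ w hw (e1 0 1 l1)).1 ((h1 _ _ b (e1 0 1 l1) k1 k2 _).2 k5)
    obtain ⟨a3, a4, l4⟩ := (h4 _ _ _ _ w hw (e1 2 3 l2)).1 ((h1 _ _ c (e1 2 3 l2) k3 k4 _).2 k6)
    have l5 := congrFun (l3.symm.trans l4) 0
    have l6 := congrFun (l3.symm.trans l4) 1
    simp [Pi.single_apply, Fin.ext_iff, Fin.val_ofNat, Nat.mod_eq_of_lt] at l5 l6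
    exact hw (by simp [l3, l5, l6])
  have k0 : ∀ u v : Projectivization F (Fin 3 → F), u ≠ v →
      Module.finrank F (Submodule.span F {u.rep, v.rep}) = 2 := fun u v huv => by
    have := finrank_span_eq_card (linearIndependent_pair_iff_ne.2 huv)
    rwa [Matrix.range_cons_cons_empty] at this
  refine ⟨F, inferInstance, inferInstance, ψ.symm, fun l => ?_, fun W hW => ?_⟩
  · obtain ⟨x, k1, -⟩ := h.mt l l
    obtain ⟨y, k2, k3, -⟩ := h.three l x x
    have k4 := ψ.symm.injective.ne k3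
    exact ⟨_, k0 _ _ k4, fun p => by
      rw [key _ _ k4 l (by simpa) (by simpa), submodule_eq, Submodule.span_singleton_le_iff_mem]⟩
  · let e := Module.finBasisOfFinrankEq F W hW
    have k1 : ∀ i, (e i : Fin 3 → F) ≠ 0 := fun i h => e.ne_zero i (Subtype.ext h)
    have k2 : Projectivization.mk F _ (k1 0) ≠ Projectivization.mk F _ (k1 1) := fun h => by
      obtain ⟨a, ha⟩ := (mk_eq_mk_iff' F _ _ _ _).1 h
      simpa using congrArg (fun v => e.repr v 0) (Subtype.ext ha : a • e 1 = e 0)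
    obtain ⟨l, k3, k4⟩ := h.jn (ψ (Projectivization.mk F _ (k1 0))) (ψ (Projectivization.mk F _ (k1 1)))
    have k5 : ∀ i, (Projectivization.mk F _ (k1 i)).rep ∈ W := fun i => by
      obtain ⟨a, ha⟩ := exists_smul_eq_mk_rep F _ (k1 i)
      exact ha ▸ W.smul_mem _ (e i).2
    refine ⟨l, fun p => ?_⟩
    rw [key _ _ k2 l k3 k4, submodule_eq, Submodule.span_singleton_le_iff_mem,
      Submodule.eq_of_le_of_finrank_eq (Submodule.span_le.2 (Set.pair_subset (k5 0) (k5 1)))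
        ((k0 _ _ k2).trans hW.symm)]

end Pl

end Cfsg.Agent.H19.ON
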