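import Cfsg.Agent.H19.Half

/-! Faithful characters of degree `(p - 1) / 2`: the bound on the number of Sylow subgroups -/

set_option autoImplicit false
set_option linter.unusedSectionVars false

namespace Cfsg.Agent.H19

open Cfsg Cfsg.Agent.H4 Cfsg.Agent.H5 Cfsg.Agent.H6
open scoped ComplexConjugate

variable {G : Type*} [Group G] {p : ℕ} [hp : Fact p.Prime] {x : G} {K : Subgroup G}

/-- `p` times the indicator of the `p`-singular elements -/
noncomputable def sI (p : ℕ) (g : G) : ℝ := by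
  classical exact if p ∣ orderOf g then p else 0

omit hp in
theorem sI_sing {g : G} (hg : p ∣ orderOf g) : sI p g = p := if_pos hg

omit hp in
theorem sI_reg {g : G} (hg : ¬ p ∣ orderOf g) : sI p g = 0 := if_neg hg

omit hp in
theorem sI_class : IsClassFunction G fun g => (sI p g : ℂ) := fun g t => by
  have : orderOf (t * g * t⁻¹) = orderOf g :=
    (orderOf_eq_of_isConj (isConj_iff.mpr ⟨t, rfl⟩)).symm
  simp only [sI, this]

variable [Fintype G]

theorem PO.sum_sI (h : PO p x K) {θ : G → ℂ} (hθ : IsClassFunction G θ) (hK : K ≤ charKer θ) :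
    eN h.ord * ∑ g, (sI p g : ℂ) * θ g = Nat.card G * sg p x θ := by
  classical
  have := Fintype.ofFinite K
  have h1 := h.sum_singular hθ
  have h2 : ∀ i : ZMod p, AA x K θ i = Nat.card K * θ (xp x i) := fun i => by
    rw [AA, Finset.sum_congr rfl fun y _ => hθ.apply_mul_of_mem_charKer' (hK y.2) _]
    simp
  rw [← sum_AA_sub, h.card_N] at h1
  simp only [h2, ← Finset.mul_sum, sum_xp_eq, xp_zero] at h1
  have h3 : ∑ g, (sI p g : ℂ) * θ g = p * ∑ g, (if p ∣ orderOf g then θ g else 0) := by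
    rw [Finset.mul_sum]
    refine Finset.sum_congr rfl fun g _ => ?_
    by_cases hg : p ∣ orderOf g
    · simp [sI_sing hg, hg]
    · simp [sI_reg hg, hg]
  have h4 : (Nat.card K : ℂ) ≠ 0 := by exact_mod_cast Nat.card_pos.ne'
  apply mul_left_cancel₀ h4
  rw [h3]
  push_cast at h1
  linear_combination h1

/-- the pair of characters of degree `e = (p - 1) / 2` -/
structure TU (h : PO p x K) (e : ℕ) (ζ ζ' : G → ℂ) : Prop where
  gen : NGen x
  ht : tN h.ord ≠ 1
  cen : K ≤ Subgroup.center G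
  he : eN h.ord = e
  pe : p = 2 * e + 1
  irr : IsIrrCharacter G ζ
  irr' : IsIrrCharacter G ζ'
  ne : ζ ≠ ζ'
  deg : ζ 1 = e
  reg : ∀ g, ¬ p ∣ orderOf g → ζ' g = ζ g
  add : ∀ g, p ∣ orderOf g → (ζ g + ζ' g) * conj (ζ g + ζ' g) = 1
  sub : ∀ g, p ∣ orderOf g → (ζ g - ζ' g) * conj (ζ g - ζ' g) = p
  faith : charKer ζ = ⊥

/-- sum of the two norms -/
noncomputable def tuU (ζ ζ' : G → ℂ) (g : G) : ℂ := ζ g * conj (ζ g) + ζ' g * conj (ζ' g)

/-- sum of the two mixed products -/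
noncomputable def tuV (ζ ζ' : G → ℂ) (g : G) : ℂ := ζ g * conj (ζ' g) + ζ' g * conj (ζ g)

namespace TU

variable {h : PO p x K} {e : ℕ} {ζ ζ' : G → ℂ} (T : TU h e ζ ζ')
include T

theorem charU : IsCharacter G (tuU ζ ζ') :=
  (T.irr.isCharacter.mul T.irr.isCharacter.conj).add (T.irr'.isCharacter.mul T.irr'.isCharacter.conj)

theorem charV : IsCharacter G (tuV ζ ζ') :=
  (T.irr.isCharacter.mul T.irr'.isCharacter.conj).add (T.irr'.isCharacter.mul T.irr.isCharacter.conj)

theorem peC : (p : ℂ) = 2 * e + 1 := by exact_mod_cast T.pe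

theorem e_ne : (e : ℂ) ≠ 0 := T.deg ▸ T.irr.apply_one_ne_zero

theorem U_sing {g : G} (hg : p ∣ orderOf g) : tuU ζ ζ' g = e + 1 := by
  have h1 := T.add g hg
  have h2 := T.sub g hg
  rw [map_add] at h1
  rw [map_sub, T.peC] at h2
  rw [tuU]; linear_combination (h1 + h2) / 2

theorem V_sing {g : G} (hg : p ∣ orderOf g) : tuV ζ ζ' g = -e := by
  have h1 := T.add g hg
  have h2 := T.sub g hg
  rw [map_add] at h1
  rw [map_sub, T.peC] at h2
  rw [tuV]; linear_combination (h1 - h2) / 2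

theorem U_reg {g : G} (hg : ¬ p ∣ orderOf g) : tuU ζ ζ' g = (2 * ‖ζ g‖ ^ 2 : ℝ) := by
  rw [tuU, T.reg g hg, Complex.mul_conj, Complex.normSq_eq_norm_sq]; push_cast; ring

theorem V_reg {g : G} (hg : ¬ p ∣ orderOf g) : tuV ζ ζ' g = (2 * ‖ζ g‖ ^ 2 : ℝ) := by
  rw [tuV, T.reg g hg, Complex.mul_conj, Complex.normSq_eq_norm_sq]; push_cast; ring

theorem U_sub_V (g : G) : tuU ζ ζ' g - tuV ζ ζ' g = sI p g := by
  by_cases hg : p ∣ orderOf g
  · rw [T.U_sing hg, T.V_sing hg, sI_sing hg, Complex.ofReal_natCast, T.peC]; ring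
  · rw [T.U_reg hg, T.V_reg hg, sI_reg hg]; simp

theorem norm_cen {y : G} (hy : y ∈ K) : ‖ζ y‖ = e := by
  rw [T.irr.isCharacter.mem_charCenter.mp (T.irr.center_le_charCenter (T.cen hy)), T.deg,
    Complex.norm_natCast]

theorem degU : charDegree (tuU ζ ζ') = 2 * e ^ 2 :=
  charDegree_eq_of (by rw [T.U_reg (h.not_dvd K.one_mem), T.norm_cen K.one_mem]; simp)

theorem degV : charDegree (tuV ζ ζ') = 2 * e ^ 2 :=
  charDegree_eq_of (by rw [T.V_reg (h.not_dvd K.one_mem), T.norm_cen K.one_mem]; simp)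

theorem fdU : fd p x (tuU ζ ζ') = 2 * e := by
  have h1 := p_mul_fd h.ord T.charU
  rw [T.degU, sg_const fun i hi => T.U_sing (orderOf_xp h.ord hi).symm.dvd] at h1
  have : (fd p x (tuU ζ ζ') : ℂ) = (2 * e : ℕ) := mul_left_cancel₀ (p_ne_zero_C (p := p)) (by
    rw [h1, T.peC]; push_cast; ring)
  exact_mod_cast this

theorem fdV : fd p x (tuV ζ ζ') = 0 := by
  have h1 := p_mul_fd h.ord T.charV
  rw [T.degV, sg_const fun i hi => T.V_sing (orderOf_xp h.ord hi).symm.dvd] at h1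
  have : (fd p x (tuV ζ ζ') : ℂ) = (0 : ℕ) := mul_left_cancel₀ (p_ne_zero_C (p := p)) (by
    rw [h1, T.peC]; push_cast; ring)
  exact_mod_cast this

theorem kerU {ξ : IrrCharacter G} (hξ : classInner (tuU ζ ζ') ξ ≠ 0) : K ≤ charKer (ξ : G → ℂ) :=
  fun y hy => T.charU.charKer_le_of_constituent ξ.2 hξ (T.charU.mem_charKer.mpr (by
    rw [T.U_reg (h.not_dvd hy), T.U_reg (h.not_dvd K.one_mem), T.norm_cen hy, T.norm_cen K.one_mem]))

theorem kerV {ξ : IrrCharacter G} (hξ : classInner (tuV ζ ζ') ξ ≠ 0) : K ≤ charKer (ξ : G → ℂ) :=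
  fun y hy => T.charV.charKer_le_of_constituent ξ.2 hξ (T.charV.mem_charKer.mpr (by
    rw [T.V_reg (h.not_dvd hy), T.V_reg (h.not_dvd K.one_mem), T.norm_cen hy, T.norm_cen K.one_mem]))

theorem U_one : classInner (tuU ζ ζ') (irrOne G : G → ℂ) = 2 := by
  have h1 := (classInner_eq_mul_conj_one _ _).symm.trans T.irr.classInner_self
  have h2 := (classInner_eq_mul_conj_one _ _).symm.trans T.irr'.classInner_self
  exact (classInner_add_left _ _ _).trans ((congrArg₂ (· + ·) h1 h2).trans one_add_one_eq_two)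

theorem fd_of_V {ξ : IrrCharacter G} (hξ : classInner (tuV ζ ζ') ξ ≠ 0) :
    fd p x (ξ : G → ℂ) = 0 := by
  have := fd_le_of_inner h.ord T.charV hξ
  rw [T.fdV] at this
  omega

theorem fd_of_U {ξ : IrrCharacter G} (hξ : classInner (tuU ζ ζ') ξ ≠ 0) (h1 : ξ ≠ irrOne G) :
    (e + 1) * fd p x (ξ : G → ℂ) = charDegree (ξ : G → ℂ) := by
  classical
  obtain ⟨m, m1, -, m2, m3⟩ := exists_mult h.ord T.charU
  obtain ⟨B⟩ := h.nonempty_BD
  have d3 : m (irrOne G) = 2 := by exact_mod_cast (m1 _).symm.trans T.U_one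
  rw [T.degU, ← Finset.add_sum_erase _ _ (Finset.mem_univ (irrOne G)), d3, charDegree_irrOne] at m2
  rw [T.fdU, ← Finset.add_sum_erase _ _ (Finset.mem_univ (irrOne G)), d3, fd_one h.ord] at m3
  have h6 : ∀ ξ ∈ Finset.univ.erase (irrOne G), (e + 1) * (m ξ * fd p x (ξ : G → ℂ)) ≤
      m ξ * charDegree (ξ : G → ℂ) := fun ξ hξ => by
    rcases Nat.eq_zero_or_pos (m ξ) with e | e
    · simp [e]
    rw [mul_left_comm]
    have := B.ratio T.gen T.ht (Finset.ne_of_mem_erase hξ)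
      (T.kerU (by rw [m1]; exact_mod_cast e.ne'))
    have h2 := T.pe
    exact Nat.mul_le_mul_left _ (by nlinarith)
  have h7 := (Finset.sum_eq_sum_iff_of_le h6).mp (by rw [← Finset.mul_sum]; nlinarith) ξ
    (Finset.mem_erase.mpr ⟨h1, Finset.mem_univ _⟩)
  rw [mul_left_comm] at h7
  exact Nat.eq_of_mul_eq_mul_left (Nat.pos_of_ne_zero fun e => hξ (by rw [m1, e, Nat.cast_zero])) h7

theorem conv {ξ : IrrCharacter G} (hK : K ≤ charKer (ξ : G → ℂ)) (g : G) :
    e * charDegree (ξ : G → ℂ) * ∑ a, (sI p a : ℂ) * (ξ : G → ℂ) (a * g) =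
      Nat.card G * (p * fd p x (ξ : G → ℂ) - charDegree (ξ : G → ℂ)) * (ξ : G → ℂ) g := by
  have h1 := h.sum_sI ξ.2.isClassFunction hK
  rw [ξ.2.sum_mul_apply_mul sI_class, p_mul_fd h.ord ξ.2.isCharacter, add_sub_cancel_left, ← h1,
    T.he, ξ.2.isCharacter.charDegree_cast]
  have := ξ.2.apply_one_ne_zero
  field_simp

theorem convU (g : G) : (e + 1) * ∑ a, (sI p a : ℂ) * tuU ζ ζ' (a * g) =
    Nat.card G * (tuU ζ ζ' g + 4 * e + 2) := by
  classical
  have h1 : ∀ ξ : IrrCharacter G, classInner (tuU ζ ζ') ξ * ((e + 1) *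
      ∑ a, (sI p a : ℂ) * (ξ : G → ℂ) (a * g)) = Nat.card G * (classInner (tuU ζ ζ') ξ *
        (ξ : G → ℂ) g) + if ξ = irrOne G then (Nat.card G * (4 * e + 2) : ℂ) else 0 := fun ξ => by
    by_cases h0 : classInner (tuU ζ ζ') ξ = 0
    · rw [if_neg fun e => by rw [e, T.U_one] at h0; norm_num at h0]
      simp [h0]
    have h2 := T.conv (T.kerU h0) g
    split_ifs with h1
    · subst h1
      rw [charDegree_irrOne, fd_one h.ord, T.peC] at h2
      rw [T.U_one]
      apply mul_left_cancel₀ T.e_ne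
      simp only [irrOne] at h2 ⊢
      push_cast at h2
      linear_combination 2 * (e + 1) * h2
    · rw [← T.fd_of_U h0 h1, T.peC] at h2
      have h3 : (fd p x (ξ : G → ℂ) : ℂ) ≠ 0 := fun e => by
        have h4 := T.fd_of_U h0 h1
        have := ξ.2.charDegree_pos
        rw [Nat.cast_eq_zero.mp e] at h4
        omega
      rw [add_zero, mul_left_comm (Nat.card G : ℂ)]
      refine congrArg _ (mul_left_cancel₀ (mul_ne_zero T.e_ne h3) ?_)
      push_cast at h2
      linear_combination h2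
  have h2 := Finset.sum_congr (rfl : Finset.univ = _) fun ξ _ => h1 ξ
  rw [Finset.sum_add_distrib, ← Finset.mul_sum, ← T.charU.isClassFunction.apply_eq_sum,
    Finset.sum_ite_eq', if_pos (Finset.mem_univ _)] at h2
  rw [add_assoc, mul_add, ← h2]
  simp only [T.charU.isClassFunction.apply_eq_sum (_ * g), Finset.mul_sum]
  rw [Finset.sum_comm]
  exact Finset.sum_congr rfl fun _ _ => Finset.sum_congr rfl fun _ _ => by ring

theorem convV (g : G) : e * ∑ a, (sI p a : ℂ) * tuV ζ ζ' (a * g) = -(Nat.card G * tuV ζ ζ' g) := by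
  have h1 : ∀ ξ : IrrCharacter G, classInner (tuV ζ ζ') ξ * (e *
      ∑ a, (sI p a : ℂ) * (ξ : G → ℂ) (a * g)) = -Nat.card G * (classInner (tuV ζ ζ') ξ *
        (ξ : G → ℂ) g) := fun ξ => by
    by_cases h0 : classInner (tuV ζ ζ') ξ = 0
    · simp [h0]
    have h2 := T.conv (T.kerV h0) g
    rw [T.fd_of_V h0] at h2
    have h3 : (charDegree (ξ : G → ℂ) : ℂ) ≠ 0 := by exact_mod_cast ξ.2.charDegree_pos.ne'
    rw [mul_left_comm (-Nat.card G : ℂ)]
    refine congrArg _ (mul_left_cancel₀ h3 ?_)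
    push_cast at h2
    linear_combination h2
  have h2 := Finset.sum_congr (rfl : Finset.univ = _) fun ξ _ => h1 ξ
  rw [← Finset.mul_sum, ← T.charV.isClassFunction.apply_eq_sum] at h2
  rw [← neg_mul, ← h2]
  simp only [T.charV.isClassFunction.apply_eq_sum (_ * g), Finset.mul_sum]
  rw [Finset.sum_comm]
  exact Finset.sum_congr rfl fun _ _ => Finset.sum_congr rfl fun _ _ => by ring

theorem convF {g : G} (hg : ¬ p ∣ orderOf g) :
    e * ∑ a, (ζ (a * g) - ζ' (a * g)) * conj (ζ a - ζ' a) = 2 * Nat.card G * ζ g := by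
  have hc := (T.irr.isGen.sub T.irr'.isGen).isClassFunction
  have h1 := T.irr.sum_apply_mul_mul_conj hc g
  have h2 := T.irr'.sum_apply_mul_mul_conj hc g
  rw [classInner_sub_right, T.irr.classInner_self, T.irr.classInner_of_ne T.irr' T.ne, T.deg] at h1
  rw [classInner_sub_right, T.irr'.classInner_self, T.irr'.classInner_of_ne T.irr T.ne.symm,
    T.reg _ (h.not_dvd K.one_mem), T.deg, T.reg g hg] at h2
  simp only [sub_mul, Finset.sum_sub_distrib]
  simp only [Pi.sub_apply] at h1 h2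
  rw [h1, h2]
  have := T.e_ne
  field_simp
  ring

theorem normF (g : G) : ‖ζ g - ζ' g‖ ^ 2 = sI p g := by
  by_cases hg : p ∣ orderOf g
  · have := T.sub g hg
    rw [Complex.mul_conj, Complex.normSq_eq_norm_sq] at this
    rw [sI_sing hg]; exact_mod_cast this
  · simp [T.reg g hg, sI_reg hg]

theorem normF_mul (a b : G) : p * (‖ζ b - ζ' b‖ * ‖ζ a - ζ' a‖) = sI p a * sI p b := by
  have h1 := T.normF a
  have h2 := T.normF b
  by_cases ha : p ∣ orderOf a
  · by_cases hb : p ∣ orderOf b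
    · rw [sI_sing ha] at h1 ⊢
      rw [sI_sing hb] at h2 ⊢
      rw [(sq_eq_sq₀ (norm_nonneg _) (norm_nonneg _)).mp (h2.trans h1.symm), ← sq, h1]
    · simp [T.reg b hb, sI_reg hb]
  · simp [T.reg a ha, sI_reg ha]

theorem norm_le_one {g : G} (hg : ¬ p ∣ orderOf g) (hK : g ∉ K) : ‖ζ g‖ ≤ 1 := by
  have h1 : ‖ζ g‖ < e := lt_of_le_of_ne
    (by simpa [T.deg] using T.irr.isCharacter.norm_le g) fun e => hK ((h.memK g).mpr ⟨
      (Subgroup.mem_center_iff.mp (T.irr.isCharacter.charCenter_le_center T.faith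
        (T.irr.isCharacter.mem_charCenter.mpr (by simp [e, T.deg]))) x), hg⟩)
  have h2 : (e * (e + 1) * ∑ a, sI p a * sI p (a * g) : ℝ) =
      Nat.card G * (p * (2 * ‖ζ g‖ ^ 2) + e * (4 * e + 2)) := by
    have h3 := T.convU g
    have h4 := T.convV g
    rw [T.U_reg hg] at h3
    rw [T.V_reg hg] at h4
    have h5 : ∑ a, (sI p a : ℂ) * sI p (a * g) = ∑ a, (sI p a : ℂ) * tuU ζ ζ' (a * g) -
        ∑ a, (sI p a : ℂ) * tuV ζ ζ' (a * g) := by
      simp only [← T.U_sub_V (_ * g), mul_sub, Finset.sum_sub_distrib]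
    apply Complex.ofReal_injective
    push_cast at h3 h4 ⊢
    rw [h5, T.peC]
    linear_combination e * h3 - (e + 1) * h4
  have h3 := congrArg norm (T.convF hg)
  have h4 := norm_sum_le Finset.univ fun a => (ζ (a * g) - ζ' (a * g)) * conj (ζ a - ζ' a)
  simp only [norm_mul, Complex.norm_conj] at h4
  have h5 : p * ∑ a, ‖ζ (a * g) - ζ' (a * g)‖ * ‖ζ a - ζ' a‖ = ∑ a, sI p a * sI p (a * g) := by
    simp only [Finset.mul_sum, T.normF_mul]
  simp only [norm_mul, Complex.norm_natCast, Complex.norm_ofNat] at h3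
  have h6 : (0 : ℝ) < Nat.card G := by exact_mod_cast Nat.card_pos
  have h7 : (p : ℝ) = 2 * e + 1 := by exact_mod_cast T.pe
  have h8 : (0 : ℝ) < e := (norm_nonneg _).trans_lt h1
  rw [← h5] at h2
  have h9 := mul_le_mul_of_nonneg_left h4 (show (0 : ℝ) ≤ e * (e + 1) * p by positivity)
  have h10 : 2 * p * Nat.card G * ((e + 1) * ‖ζ g‖) ≤ 2 * p * Nat.card G * (‖ζ g‖ ^ 2 + e) := by
    calc _ = (e + 1) * p * (2 * Nat.card G * ‖ζ g‖) := by ring
      _ ≤ e * (e + 1) * (p * ∑ a, ‖ζ (a * g) - ζ' (a * g)‖ * ‖ζ a - ζ' a‖) := by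
        rw [← h3]; linarith
      _ = _ := by rw [h2, h7]; ring
  have h11 := le_of_mul_le_mul_left h10 (by rw [h7]; positivity)
  nlinarith

theorem sum_W : ∑ g, (tuU ζ ζ' g - 2) * conj (tuV ζ ζ' g) = 0 := by
  have h1 : classInner (tuU ζ ζ') (tuV ζ ζ') = 0 := by
    rw [T.charU.isClassFunction.classInner_eq_sum]
    refine Finset.sum_eq_zero fun ξ _ => ?_
    by_contra hc
    have h2 := T.fd_of_V (ξ := ξ) fun e => hc (by simp [e])
    have h3 := T.fd_of_U (left_ne_zero_of_mul hc) fun e => by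
      rw [e, fd_one h.ord] at h2; omega
    have := ξ.2.charDegree_pos
    rw [h2] at h3
    omega
  have h2 : classInner (irrOne G : G → ℂ) (tuV ζ ζ') = 0 := (classInner_eq_zero_symm _ _).mp (by
    by_contra hc
    exact one_ne_zero ((fd_one h.ord).symm.trans (T.fd_of_V hc)))
  have h3 := card_mul_classInner (tuU ζ ζ') (tuV ζ ζ')
  have h4 := card_mul_classInner (irrOne G : G → ℂ) (tuV ζ ζ')
  rw [h1] at h3
  rw [h2] at h4
  simp only [irrOne, one_mul] at h4
  simp only [sub_mul, Finset.sum_sub_distrib, ← Finset.mul_sum, ← h3, ← h4]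
  simp

theorem sN_le (h2 : 2 ≤ e) : sN x ≤ p + 1 := by
  classical
  have h3 : ∑ g : G, sI p g = 2 * Nat.card G := by
    have := h.sum_sI (θ := irrOne G) (irrOne G).2.isClassFunction
      (by rw [(irrOne G).2.charKer_eq_top_iff.mpr rfl]; exact le_top)
    rw [sg_const (c := 1) fun _ _ => rfl, T.he, T.peC] at this
    apply Complex.ofReal_injective
    apply mul_left_cancel₀ T.e_ne
    simp only [irrOne, mul_one] at this
    push_cast
    linear_combination this
  have h7 : (p : ℝ) = 2 * e + 1 := by exact_mod_cast T.pe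
  have h4 : ∀ g, p * ((tuU ζ ζ' g - 2) * conj (tuV ζ ζ' g)).re ≤
      (if g ∈ K then (p * (4 * e ^ 2 * (e ^ 2 - 1)) : ℝ) else 0) - e * (e - 1) * sI p g := fun g => by
    by_cases hg : p ∣ orderOf g
    · rw [if_neg fun e => h.not_dvd e hg, T.U_sing hg, T.V_sing hg, sI_sing hg]
      simp
      exact le_of_eq (by ring)
    rw [T.U_reg hg, T.V_reg hg, sI_reg hg, Complex.conj_ofReal, ← Complex.ofReal_ofNat,
      ← Complex.ofReal_sub, ← Complex.ofReal_mul, Complex.ofReal_re]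
    split_ifs with hK
    · rw [T.norm_cen hK]; exact le_of_eq (by ring)
    have h5 := T.norm_le_one hg hK
    have h6 : ‖ζ g‖ ^ 2 ≤ 1 := pow_le_one₀ (norm_nonneg _) h5
    rw [mul_zero, sub_zero]
    exact mul_nonpos_of_nonneg_of_nonpos (Nat.cast_nonneg _)
      (mul_nonpos_of_nonpos_of_nonneg (by linarith) (by positivity))
  have h5 := Finset.sum_le_sum fun g (_ : g ∈ Finset.univ) => h4 g
  rw [← Finset.mul_sum, ← Complex.re_sum, T.sum_W, Finset.sum_sub_distrib, ← Finset.mul_sum, h3,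
    ← Finset.sum_filter, Finset.sum_const, nsmul_eq_mul, ← Fintype.card_subtype,
    ← Nat.card_eq_fintype_card, h.card_G, show Nat.card (EE h.ord) = e from T.he] at h5
  have h8 : (2 : ℝ) ≤ e := by exact_mod_cast h2
  have h9 : (0 : ℝ) < Nat.card K := by exact_mod_cast Nat.card_pos
  have h10 : 2 * p * Nat.card K * (e ^ 2 * (e - 1)) * sN x ≤
      2 * p * Nat.card K * (e ^ 2 * (e - 1)) * (p + 1 : ℝ) := by
    push_cast at h5
    rw [Complex.zero_re] at h5
    rw [show (p + 1 : ℝ) = 2 * (e + 1) by linarith]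
    linarith
  have := le_of_mul_le_mul_left h10 (by rw [h7]; have : (0 : ℝ) < e - 1 := by linarith
                                        positivity)
  exact_mod_cast this

end TU

end Cfsg.Agent.H19
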