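import Cfsg.Agent.H19.Tuan1

/-! Faithful characters of degree `(p - 1) / 2`: the group modulo its centre is `PSL₂(p)` -/

set_option autoImplicit false
set_option linter.unusedSectionVars false

namespace Cfsg.Agent.H19

open Cfsg Cfsg.Agent.H4 Cfsg.Agent.H5 Cfsg.Agent.H6
open scoped ComplexConjugate MatrixGroups

variable {G : Type*} [Group G] {p : ℕ} [hp : Fact p.Prime] {x : G} {K : Subgroup G}

theorem per_two_facts {E : Subgroup (ZMod p)ˣ} (hE : Nat.card ((ZMod p)ˣ ⧸ E) = 2)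
    (he : p = 2 * Nat.card E + 1) {q r : (ZMod p)ˣ ⧸ E} (hqr : q ≠ r) {i : ZMod p} (hi : i ≠ 0) :
    per E q i + per E r i = -1 ∧ (per E q i - per E r i) * conj (per E q i - per E r i) = p := by
  classical
  have := Fintype.ofFinite ((ZMod p)ˣ ⧸ E)
  have h1 : (Finset.univ : Finset ((ZMod p)ˣ ⧸ E)) = {q, r} :=
    (Finset.eq_univ_of_card _ (by rw [Finset.card_pair hqr, ← hE, Nat.card_eq_fintype_card])).symm
  have h2 : ∀ s, s = q ∨ s = r := fun s => by simpa [h1] using Finset.mem_univ s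
  refine ⟨by rw [← sum_per E hi, h1, Finset.sum_pair hqr], ?_⟩
  have h3 : ∀ j : (ZMod p)ˣ, (per E q (j : ZMod p) - per E r (j : ZMod p)) *
      conj (per E q (j : ZMod p) - per E r (j : ZMod p)) =
      (per E q 1 - per E r 1) * conj (per E q 1 - per E r 1) := fun j => by
    rw [← mul_one (j : ZMod p), per_mul, per_mul]
    have h4 : (j : _ ⧸ E) * q ≠ j * r := fun e => hqr (mul_left_cancel e)
    rcases h2 (j * q) with e | e <;> rcases h2 (j * r) with e' | e' <;> rw [e, e'] at h4 ⊢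
    · exact (h4 rfl).elim
    · simp only [map_sub]; ring
    · exact (h4 rfl).elim
  have h4 : ∑ j : (ZMod p)ˣ, (per E q (j : ZMod p) - per E r (j : ZMod p)) *
      conj (per E q (j : ZMod p) - per E r (j : ZMod p)) = 2 * p * Nat.card E := by
    simp only [map_sub, mul_sub, sub_mul, Finset.sum_sub_distrib, sum_units_per_mul_conj,
      if_pos, if_neg hqr, if_neg hqr.symm]
    ring
  simp only [h3, Finset.sum_const, Finset.card_univ, ZMod.card_units, nsmul_eq_mul] at h4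
  rw [← Units.val_mk0 hi, h3]
  have h5 : ((p - 1 : ℕ) : ℂ) = 2 * Nat.card E := by
    rw [show p - 1 = 2 * Nat.card E by omega]; push_cast; ring
  have h6 : (Nat.card E : ℂ) ≠ 0 := by exact_mod_cast Nat.card_pos.ne'
  rw [h5] at h4
  apply mul_left_cancel₀ (mul_ne_zero two_ne_zero h6)
  linear_combination h4

theorem NGen.perfect (hg : NGen x) (hx : orderOf x = p) (he : eN hx ≠ 1) : commutator G = ⊤ := by
  obtain ⟨c, hc, h1⟩ := (EE hx).bot_or_exists_ne_one.resolve_left fun e =>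
    he (Subgroup.card_eq_one.mpr e)
  obtain ⟨g, hg'⟩ := (mem_EE hx).mp hc
  have h3 : (c : ZMod p) - 1 ≠ 0 := fun e => h1 (Units.ext (sub_eq_zero.mp e))
  refine hg _ inferInstance ?_
  rw [← xp_pow_inv hx h3, sub_eq_add_neg, xp_add hx, xp_neg hx, xp_one hx, ← hg']
  exact pow_mem (Subgroup.commutator_mem_commutator (Subgroup.mem_top g) (Subgroup.mem_top x)) _

variable [Fintype G]

theorem PO.val_of_half (h : PO p x K) {χ : IrrCharacter G} (hx : (χ : G → ℂ) x ≠ (χ : G → ℂ) 1)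
    (hd : 2 * charDegree (χ : G → ℂ) + 1 = p) : tN h.ord ≠ 1 ∧ ∃ (d : ℕ) (c : (ZMod p)ˣ),
      charDegree (χ : G → ℂ) = eN h.ord * d ∧
      ∀ i : ZMod p, i ≠ 0 → (χ : G → ℂ) (xp x i) = d * per (EE h.ord) c i := by
  have := Fintype.ofFinite K
  have := χ.2.charDegree_pos
  obtain ⟨θ, D, c, rfl, ht, ⟨e1, e2⟩ | ⟨-, -, e3, -⟩⟩ := h.small_cases (χ := χ) (by omega) hx
  · exact ⟨ht, D.d, c, e2, fun i hi => by rw [D.valμ_one c hi, e1]; simp⟩
  have h9 := eN_mul' h.ord
  have h10 := Nat.mul_le_mul_left (eN h.ord) (show 2 ≤ tN h.ord by have := tN_pos h.ord; omega)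
  omega

theorem PO.exists_TU (h : PO p x K) (hg : NGen x) {χ : IrrCharacter G}
    (hf : ∀ g, (χ : G → ℂ) g = (χ : G → ℂ) 1 → g = 1) (hd : 2 * charDegree (χ : G → ℂ) + 1 = p)
    (hx : x ∉ Subgroup.center G) : ∃ ζ', TU h (charDegree (χ : G → ℂ)) χ ζ' := by
  have h0 := χ.2.charDegree_pos
  obtain ⟨hK, ht, he⟩ := h.half hg hf (by omega) hx
  have h9 := eN_mul' h.ord
  have h10 := Nat.mul_le_mul_left (eN h.ord) (show 2 ≤ tN h.ord by have := tN_pos h.ord; omega)
  have he : eN h.ord = charDegree (χ : G → ℂ) := by omega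
  have ht2 : tN h.ord = 2 := Nat.eq_of_mul_eq_mul_left h0 (by rw [he] at h9; omega)
  obtain ⟨-, d, c, e1, e2⟩ := h.val_of_half (fun e => hx (hf x e ▸ one_mem _)) hd
  obtain rfl : d = 1 := (Nat.eq_of_mul_eq_mul_left h0 (by rw [he] at e1; omega)).symm
  obtain ⟨r, hr⟩ := BD.exists_ne_one (h := h) ht
  obtain ⟨u, rfl⟩ := QuotientGroup.mk_surjective r
  obtain ⟨σ, s1, s2⟩ := exists_ringEquiv_unit h.not_dvd_div u
  have hχ' := χ.2.map_ringHom (σ : ℂ →+* ℂ)
  have h3 : ∀ g, ¬ p ∣ orderOf g → (σ : ℂ →+* ℂ) ((χ : G → ℂ) g) = (χ : G → ℂ) g := fun g hg => by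
    rw [χ.2.isCharacter.map_apply_eq_pow (m := 1) (fun z hz => by simpa using s1 z hz)
      (h.pow_eq_one_of_regular hg), pow_one]
  have h4 := fun (i : ZMod p) (hi : i ≠ 0) => per_two_facts ht2 (show p = 2 * eN h.ord + 1 by omega)
    (q := c) (r := (u : _ ⧸ EE h.ord) * c) (by simpa using hr.symm) hi
  have h5 : ∀ g, p ∣ orderOf g → ∃ (i : ZMod p) (w : ℂ), i ≠ 0 ∧ w * conj w = 1 ∧
      (χ : G → ℂ) g = w * per (EE h.ord) c i ∧
      (σ : ℂ →+* ℂ) ((χ : G → ℂ) g) = w * per (EE h.ord) ((u : _ ⧸ EE h.ord) * c) i := fun g hg => by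
    obtain ⟨t, i, hi, y, hy, rfl⟩ := h.exists_conj_of_dvd hg
    have h6 := χ.2.center_le_charCenter (hK hy)
    have h7 := apply_mul_of_mem_charCenter h6 χ.2.apply_one_ne_zero (xp x i)
    rw [e2 i hi, Nat.cast_one, one_mul] at h7
    rw [χ.2.isClassFunction, (h.commute_xp i hy).eq, h7]
    refine ⟨i, _, hi, ?_, rfl, ?_⟩
    · rw [Complex.mul_conj, Complex.normSq_eq_norm_sq, norm_div,
        χ.2.isCharacter.mem_charCenter.mp h6, div_self (norm_ne_zero_iff.mpr χ.2.apply_one_ne_zero)]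
      simp
    · rw [map_mul, map_div₀, h3 _ (h.not_dvd hy), h3 _ (h.not_dvd K.one_mem), map_per _ s2]
  refine ⟨_, hg, ht, hK, he, hd.symm, χ.2, hχ', fun e => ?_, χ.2.isCharacter.charDegree_cast.symm,
    h3, fun g hg => ?_, fun g hg => ?_, eq_bot_iff.mpr fun a ha => hf a (apply_of_mem_charKer ha)⟩
  · obtain ⟨i, w, hi, e5, e3, e4⟩ := h5 x h.ord.symm.dvd
    have h6 := (h4 i hi).2
    have hw : w ≠ 0 := left_ne_zero_of_mul_eq_one e5
    rw [mul_left_cancel₀ hw (e3.symm.trans ((congrFun e x).trans e4))] at h6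
    exact p_ne_zero_C (p := p) (by simpa using h6.symm)
  · obtain ⟨i, w, hi, e5, e3, e4⟩ := h5 g hg
    rw [e4, e3, ← mul_add, (h4 i hi).1]
    simpa using e5
  · obtain ⟨i, w, hi, e5, e3, e4⟩ := h5 g hg
    rw [e4, e3, ← mul_sub, map_mul, mul_mul_mul_comm, e5, (h4 i hi).2, one_mul]

theorem PO.center_le (h : PO p x K) (hx : x ∉ Subgroup.center G) : Subgroup.center G ≤ K :=
  fun y hy => (h.memK y).mpr ⟨Subgroup.mem_center_iff.mp hy x, fun e => hx (h.mem_of_dvd _
    (e.trans (Subgroup.orderOf_dvd_natCard _ hy)))⟩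

theorem PO.iso_of_sN (h : PO p x K) (hg : NGen x) (hx : x ∉ Subgroup.center G)
    (hK : K ≤ Subgroup.center G) (he : 2 * eN h.ord + 1 = p) (h1 : eN h.ord ≠ 1)
    (hs : sN x ≤ p + 1) : Nonempty ((G ⧸ Subgroup.center G) ≃* PSL(2, ZMod p)) := by
  have := Fintype.ofFinite (G ⧸ Subgroup.center G)
  have hx' := orderOf_mk_of_not_dvd h.ord (Subgroup.center G) fun e => hx (h.mem_of_dvd _ e)
  have hn : ¬ p ^ 2 ∣ Nat.card (G ⧸ Subgroup.center G) := fun e =>
    h.nsq (e.trans (Subgroup.card_quotient_dvd_card _))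
  have key : ∀ (g : G) (c : ZMod p), (g : G ⧸ Subgroup.center G) *
      (x : G ⧸ Subgroup.center G) * (g : G ⧸ Subgroup.center G)⁻¹ =
      xp (x : G ⧸ Subgroup.center G) c → g * x * g⁻¹ = xp x c := fun g c e => by
    have h2 : (xp x c)⁻¹ * (g * x * g⁻¹) ∈ Subgroup.center G :=
      QuotientGroup.eq.mp (by simpa [xp] using e.symm)
    have := (h.conj_eq (g := g) (i := 1) (j := c) K.one_mem (h.center_le hx h2)
      (by rw [xp_one h.ord]; group)).1
    rwa [xp_one h.ord] at this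
  have h' : PO p (x : G ⧸ Subgroup.center G) ⊥ := po_bot hx' (le_antisymm (fun g hg => by
    obtain ⟨g, rfl⟩ := QuotientGroup.mk_surjective g
    have h2 := key g 1 (by
      rw [xp_one hx', Subgroup.mem_centralizer_singleton_iff.mp hg, mul_inv_cancel_right])
    rw [xp_one h.ord, mul_inv_eq_iff_eq_mul] at h2
    obtain ⟨i, y, hy, rfl⟩ := h.exists_eq_mul (h2.symm : Commute x g)
    rw [QuotientGroup.mk_mul, (QuotientGroup.eq_one_iff y).mpr (hK hy), mul_one, xp,
      QuotientGroup.mk_pow]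
    exact Subgroup.npow_mem_zpowers _ _) (Subgroup.zpowers_le.mpr
      (Subgroup.mem_centralizer_singleton_iff.mpr rfl)))
  have hE : EE hx' = EE h.ord := Subgroup.ext fun c => by
    rw [mem_EE, mem_EE]
    refine ⟨fun ⟨g, e⟩ => ?_, fun ⟨g, e⟩ => ⟨g, congrArg QuotientGroup.mk e⟩⟩
    obtain ⟨g, rfl⟩ := QuotientGroup.mk_surjective g
    exact ⟨g, key g c e⟩
  have hE' : eN hx' = eN h.ord := congrArg (fun E : Subgroup _ => Nat.card E) hE
  have hG := (hg.mk _).perfect hx' (hE' ▸ h1)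
  have h2 := sN_ne_one h' hG
  obtain ⟨n, h3⟩ := exists_sN_eq hx' hn
  have h4 : _ ≤ sN x := Nat.le_of_dvd (Nat.pos_of_ne_zero Subgroup.index_ne_zero_of_finite)
    (sN_mk_dvd (x := x) (Subgroup.center G))
  obtain rfl : n = 1 := by
    have := hp.out.pos
    rcases n with _ | _ | n
    · omega
    · rfl
    · nlinarith
  obtain ⟨P, hP⟩ := exists_sylow_eq hx' hn
  refine iso_PSL_of_sylow hG p (by omega) P (by rw [hP, Nat.card_zpowers, hx'])
    (by rw [← sN_eq_card hx' hn, h3, one_mul]) (faithful_sylow h' h2) ?_ _ (ZMod.card p)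
  rw [hP, h'.card_N, Subgroup.card_bot, show Nat.card (EE h'.ord) = _ from hE',
    show p - 1 = 2 * eN h.ord by omega]
  ring

theorem iso_of_ngen (hx : orderOf x = p) (hn : ¬ p ^ 2 ∣ Nat.card G) (hg : NGen x)
    {χ : G → ℂ} (hχ : IsIrrCharacter G χ) (hf : ∀ g, χ g = χ 1 → g = 1)
    (hd : 2 * charDegree χ + 1 = p) (hz : x ∉ Subgroup.center G) :
    eN hx = charDegree χ ∧ Nonempty ((G ⧸ Subgroup.center G) ≃* PSL(2, ZMod p)) := by
  obtain ⟨K, h⟩ := exists_PO hx hn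
  obtain ⟨ζ', T⟩ := h.exists_TU hg (χ := ⟨χ, hχ⟩) hf hd hz
  have h0 := hχ.charDegree_pos
  have h8 : eN h.ord ≠ 1 := fun e => hz (Subgroup.mem_center_iff.mpr fun g =>
    (central_of_e_one h.ord h.nsq (fun g hg => (actN_eq_one_iff h.ord ⟨g, hg⟩).mp
      (Subgroup.mem_bot.mp (Subgroup.card_eq_one.mp e ▸ actN_mem h.ord _)))
      hχ.isCharacter (by omega) hf g).eq.symm)
  have h1 : eN h.ord = charDegree χ := T.he
  exact ⟨h1, h.iso_of_sN hg hz T.cen (by omega) h8 (T.sN_le (show 2 ≤ charDegree χ by omega))⟩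

theorem tuan_half (hx : orderOf x = p) (hn : ¬ p ^ 2 ∣ Nat.card G) (hne : NN x ≠ ⊤) {χ : G → ℂ}
    (hχ : IsCharacter G χ) (hf : ∀ g, χ g = χ 1 → g = 1) (hd : 2 * charDegree χ + 1 = p) :
    Nonempty ((G ⧸ Subgroup.center G) ≃* PSL(2, ZMod p)) := by
  set S := Subgroup.normalClosure ({x} : Set G)
  have := Fintype.ofFinite S
  obtain ⟨K, h⟩ := exists_PO hx hn
  obtain ⟨ψ, h1, h2, h3⟩ := exists_noncentral_constituent hx hn hne hχ hf S (mem_ncl x)
  have hxS : orderOf (⟨x, mem_ncl x⟩ : S) = p := by rw [← hx, ← Subgroup.orderOf_coe]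
  have hnS : ¬ p ^ 2 ∣ Nat.card S := fun e => hn (e.trans (Subgroup.card_subgroup_dvd_card _))
  have h4 := le_degree_of_ngen hxS hnS (ngen_ncl hx hn) h1 h3
  obtain rfl : (fun g : S => χ g) = ψ := eq_of_constituent_of_degree_le (hχ.comp S.subtype) h1 h2 (by
    rw [← h1.isCharacter.charDegree_cast, show χ ((1 : S) : G) = charDegree χ from
      hχ.charDegree_cast.symm]
    exact_mod_cast (by omega : charDegree χ ≤ charDegree ψ))
  have hi : IsIrrCharacter G χ := hχ.isIrr_of_comp S.subtype h1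
  have hdS : charDegree (fun g : S => χ g) = charDegree χ :=
    charDegree_eq_of hχ.charDegree_cast.symm
  obtain ⟨e1, ⟨φ⟩⟩ := iso_of_ngen hxS hnS (ngen_ncl hx hn) h1 (fun g e => Subtype.ext (hf g e))
    (hdS ▸ hd) fun e => h3 (h1.center_le_charCenter e)
  obtain ⟨ht, d, c, e2, e3⟩ := h.val_of_half (χ := ⟨χ, hi⟩)
    (fun e => by rw [hf x e, orderOf_one] at hx; exact hp.out.ne_one hx.symm) hd
  have h0 := hi.charDegree_pos
  obtain ⟨L, hL, l1, l2⟩ := exists_normal_of_pos h ht (χ := ⟨χ, hi⟩) (d := d)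
    (hχ.charDegree_cast.symm.trans (by rw [show charDegree χ = _ from e2, Nat.cast_mul])) e3
  have hLS : S ≤ Subgroup.centralizer L := Subgroup.normalClosure_le_normal fun _ e l hl => by
    rw [e]; exact (le_centralizer_of_normal hx hn hχ (by omega) hf l2 hl).eq.symm
  have hE : EE hxS = EE hx := Subgroup.eq_of_le_of_card_ge
    (fun c hc => by
      obtain ⟨g, e⟩ := (mem_EE hxS).mp hc
      exact (mem_EE hx).mpr ⟨g, congrArg Subtype.val e⟩) (by
      have h9 := eN_mul' hx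
      have h10 := Nat.mul_le_mul_left (eN hx) (show 2 ≤ tN hx by have := tN_pos hx; omega)
      show eN hx ≤ eN hxS
      omega)
  obtain ⟨K', h'⟩ := exists_PO hxS hnS
  have hG : ∀ g : G, ∃ s ∈ S, ∃ y ∈ K, g = s * y := fun g => by
    obtain ⟨a, i, e⟩ := h'.exists_conj_xp (g := ⟨g * x * g⁻¹, Subgroup.Normal.conj_mem
      inferInstance _ (mem_ncl x) g⟩) (by
        rw [← Subgroup.orderOf_coe, ← hx]
        exact (orderOf_eq_of_isConj (isConj_iff.mpr ⟨g, rfl⟩)).symm)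
    have e' : g * x * g⁻¹ = a * xp x (i : ZMod p) * (a : G)⁻¹ := congrArg Subtype.val e
    obtain ⟨b, hb⟩ := (mem_EE hxS).mp (hE ▸ (mem_EE hx).mpr ⟨(a : G)⁻¹ * g, by
      calc _ = (a : G)⁻¹ * (g * x * g⁻¹) * a := by group
        _ = _ := by rw [e']; group⟩ : i ∈ EE hxS)
    have hb' : b * x * (b : G)⁻¹ = xp x (i : ZMod p) := congrArg Subtype.val hb
    obtain ⟨j, y, hy, e4⟩ := h.exists_eq_mul (c := (b : G)⁻¹ * ((a : G)⁻¹ * g)) (by
      rw [← hb'] at e'
      calc x * _ = (b : G)⁻¹ * (a : G)⁻¹ * (a * (b * x * (b : G)⁻¹) * (a : G)⁻¹) * g := by group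
        _ = _ := by rw [← e']; group)
    exact ⟨a * b * xp x j, mul_mem (mul_mem a.2 b.2) (pow_mem (mem_ncl x) _), y, hy, by
      rw [mul_assoc, ← e4]; group⟩
  have hK : K ≤ Subgroup.center G := fun y hy => by
    have h5 : S ≤ Subgroup.centralizer {y} := fun s hs =>
      Subgroup.mem_centralizer_singleton_iff.mpr (hLS hs y (l1 hy)).symm
    have h6 := (hχ.comp (Subgroup.centralizer {y}).subtype).isIrr_of_comp (Subgroup.inclusion h5) h1
    exact hχ.charCenter_le_center (eq_bot_iff.mpr fun a ha => hf a (apply_of_mem_charKer ha))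
      (hχ.mem_charCenter.mpr (h6.isCharacter.mem_charCenter.mp (h6.center_le_charCenter
        (x := ⟨y, Subgroup.mem_centralizer_singleton_iff.mpr rfl⟩) (Subgroup.mem_center_iff.mpr
          fun g => Subtype.ext (Subgroup.mem_centralizer_singleton_iff.mp g.2)))))
  let f := (QuotientGroup.mk' (Subgroup.center G)).comp S.subtype
  have f1 : Function.Surjective f := fun q => by
    obtain ⟨g, rfl⟩ := QuotientGroup.mk_surjective q
    obtain ⟨s, hs, y, hy, rfl⟩ := hG g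
    exact ⟨⟨s, hs⟩, by simp [f, (QuotientGroup.eq_one_iff y).mpr (hK hy)]⟩
  have f2 : f.ker = Subgroup.center S := Subgroup.ext fun s => by
    rw [MonoidHom.mem_ker, show f s = ((s : G) : G ⧸ Subgroup.center G) from rfl,
      QuotientGroup.eq_one_iff, Subgroup.mem_center_iff, Subgroup.mem_center_iff]
    refine ⟨fun e g => Subtype.ext (e g), fun e g => ?_⟩
    obtain ⟨a, ha, y, hy, rfl⟩ := hG g
    rw [mul_assoc, ← Subgroup.mem_center_iff.mp (hK hy), ← mul_assoc, ← mul_assoc]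
    exact congrArg (fun u : S => (u : G) * y) (e ⟨a, ha⟩)
  exact ⟨((QuotientGroup.quotientKerEquivOfSurjective f f1).symm.trans
    (QuotientGroup.quotientMulEquivOfEq f2)).trans φ⟩

end Cfsg.Agent.H19
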